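import Cfsg.Agent.Lib.Helper83.BL3Shape
import Cfsg.Agent.S0942

/-!
# The principal block when `|N:C| = 3`: an explicit interface
-/

set_option autoImplicit false
set_option linter.unusedSectionVars false
open Cfsg
open scoped ComplexConjugate

namespace Cfsg.Agent.Lib.Helper83

open Cfsg.Agent.Lib.Helper20 Cfsg.Agent.Lib.Helper46 Cfsg.Agent.Lib.Helper81
  Cfsg.Agent.Lib.Helper51

theorem sum_ite_three {ι : Type*} [Fintype ι] {R : Type*} [AddCommMonoid R]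
    (X : Set ι) [DecidablePred (fun i => i ∈ X)] {a b c : ι} (hX : X = {a, b, c}) (hab : a ≠ b)
    (hac : a ≠ c) (hbc : b ≠ c) (F : ι → R) :
    (∑ i : ι, if i ∈ X then F i else 0) = F a + F b + F c := by
  classical
  rw [← Finset.sum_filter]
  have : Finset.univ.filter (fun i => i ∈ X) = {a, b, c} := by
    ext i; simp [hX]
  rw [this, Finset.sum_insert (by simp [hab, hac]), Finset.sum_pair hbc, add_assoc]

section

variable {G : Type*} [Group G] [Fintype G] [Fintype (IrrCharacter G)] {p : ℕ} [Fact p.Prime]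
  {M : Ideal AlgInt}

open Classical in
/-- The explicit description of the principal block for `|N:C| = 3`. -/
structure BL3 (M : Ideal AlgInt) (p : ℕ) (P : Subgroup G) [Fintype (P →* ℂˣ)] (ε : ℤ)
    (ζ : (P →* ℂˣ) → IrrCharacter G) (e₂ e₃ : ℤ) (χ₂ χ₃ : IrrCharacter G) : Prop where
  eps : ε = 1 ∨ ε = -1
  e2 : e₂ = 1 ∨ e₂ = -1
  e3 : e₃ = 1 ∨ e₃ = -1
  ne2 : oneIrr G ≠ χ₂
  ne3 : oneIrr G ≠ χ₃
  ne23 : χ₂ ≠ χ₃
  nonexc : principalBlock M G \ excSet ζ = {oneIrr G, χ₂, χ₃}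
  exc_sub : excSet ζ ⊆ principalBlock M G
  inj : ∀ ψ ψ', ψ ≠ 1 → ψ' ≠ 1 → (ζ ψ = ζ ψ' ↔ dualRel P ψ ψ')
  val2 : ∀ z y : G, IsPPart p z y → y ∈ P → y ≠ 1 → (χ₂ : G → ℂ) z = (e₂ : ℂ)
  val3 : ∀ z y : G, IsPPart p z y → y ∈ P → y ≠ 1 → (χ₃ : G → ℂ) z = (e₃ : ℂ)
  valζ : ∀ ψ : P →* ℂˣ, ψ ≠ 1 → ∀ (z : G) (y : P), IsPPart p z (y : G) → (y : G) ≠ 1 →
    (ζ ψ : G → ℂ) z = (ε : ℂ) * ∑ ψ' : P →* ℂˣ, if dualRel P ψ ψ' then ((ψ' y : ℂˣ) : ℂ) else 0
  reg : ∀ ψ : P →* ℂˣ, ψ ≠ 1 → ∀ g : G, ¬ p ∣ orderOf g →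
    1 + (e₂ : ℂ) * (χ₂ : G → ℂ) g + (e₃ : ℂ) * (χ₃ : G → ℂ) g - (ε : ℂ) * (ζ ψ : G → ℂ) g = 0

open Classical in
theorem exists_bl3 (hM : IsPModular p M) (P : Sylow p G) [IsMulCommutative P]
    [Fintype (P : Subgroup G)] [Fintype ((P : Subgroup G) →* ℂˣ)]
    (hfrob : ∀ y : G, y ∈ (P : Subgroup G) → y ≠ 1 →
      Subgroup.centralizer ({y} : Set G) ⊓ Subgroup.normalizer ((P : Subgroup G) : Set G)
        = Subgroup.centralizer ((P : Subgroup G) : Set G))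
    (hCN : (Subgroup.centralizer ((P : Subgroup G) : Set G)).relIndex
      (Subgroup.normalizer ((P : Subgroup G) : Set G)) = 3)
    (hm2 : 3 + 1 < Nat.card (P : Subgroup G)) :
    ∃ (ε : ℤ) (ζ : ((P : Subgroup G) →* ℂˣ) → IrrCharacter G) (e₂ e₃ : ℤ)
      (χ₂ χ₃ : IrrCharacter G), BL3 M p (P : Subgroup G) ε ζ e₂ e₃ χ₂ χ₃ ∧
        Nat.card (excSet ζ) * 3 = Nat.card (P : Subgroup G) - 1 := by
  have hc : ∀ a b : (P : Subgroup G), a * b = b * a :=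
    fun a b => (inferInstance : IsMulCommutative P).is_comm.comm a b
  have hfree := freeNC_of_frob (P : Subgroup G) hfrob
  have hm2' : (Subgroup.centralizer ((P : Subgroup G) : Set G)).relIndex
      (Subgroup.normalizer ((P : Subgroup G) : Set G)) + 1 < Nat.card (P : Subgroup G) := by
    rw [hCN]; exact hm2
  obtain ⟨ε, ζ, a, h, hsign, hcard⟩ := exists_blShape_three hM P hfrob hCN hm2
  obtain ⟨ψ₀, ψ₁, hψ₀, hψ₁, hnrel⟩ := exists_two_orbits (P : Subgroup G) hc hfree hm2'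
  obtain ⟨y₀, hy₀⟩ : ∃ y₀ : (P : Subgroup G), y₀ ≠ 1 := by
    by_contra hcon
    push Not at hcon
    have : Nat.card (P : Subgroup G) = 1 := by
      rw [Nat.card_eq_one_iff_unique]
      exact ⟨⟨fun a b => by rw [hcon a, hcon b]⟩, ⟨1⟩⟩
    omega
  have h1X : oneIrr G ∉ excSet ζ := h.one_not_exc hψ₀ hψ₁ hnrel
  have h1X' : oneIrr G ∈ principalBlock M G \ excSet ζ := ⟨oneIrr_mem hM, h1X⟩
  have ha1 : a (oneIrr G) = 1 := h.a_one hM hc h1X hy₀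
  have hcardY : Nat.card (excSet ζ) * 3 = Nat.card (P : Subgroup G) - 1 := by
    have := h.card_exc hc hfree
    rwa [hCN] at this
  -- the two other characters
  have h2 : ((principalBlock M G \ excSet ζ) \ {oneIrr G}).ncard = 2 := by
    rw [Set.ncard_sdiff_singleton_of_mem h1X', ← Nat.card_coe_set_eq, hcard]
  obtain ⟨χ₂, χ₃, hne23, hX23⟩ := Set.ncard_eq_two.1 h2
  have hX : principalBlock M G \ excSet ζ = {oneIrr G, χ₂, χ₃} := by
    rw [← hX23, Set.insert_sdiff_singleton, Set.insert_eq_of_mem h1X']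
  have hm₂ : χ₂ ∈ (principalBlock M G \ excSet ζ) \ {oneIrr G} := by rw [hX23]; simp
  have hm₃ : χ₃ ∈ (principalBlock M G \ excSet ζ) \ {oneIrr G} := by rw [hX23]; simp
  have hF1 : ∀ χ ∈ principalBlock M G, ∀ z y : G, IsPPart p z y → y ∈ (P : Subgroup G) → y ≠ 1 →
      (χ : G → ℂ) z = (χ : G → ℂ) y := by
    intro χ hχ z y hz hy hy1
    obtain ⟨v, hv, hcomm, hord, hreg⟩ := hz
    rw [← hv]
    exact Cfsg.Agent.S0942.result p M hM y hord v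
      (mem_centralizerPPrimeCore_of_regular P hy (hfrob y hy hy1) hcomm hreg) χ hχ
  have hne2 : oneIrr G ≠ χ₂ := fun hh => hm₂.2 hh.symm
  have hne3 : oneIrr G ≠ χ₃ := fun hh => hm₃.2 hh.symm
  refine ⟨ε, ζ, a χ₂, a χ₃, χ₂, χ₃, ⟨h.eps, hsign _ hm₂.1, hsign _ hm₃.1, hne2, hne3, hne23, hX,
    h.exc_subset, h.inj, ?_, ?_, ?_, ?_⟩, hcardY⟩
  · intro z y hz hy hy1
    rw [hF1 χ₂ hm₂.1.1 z y hz hy hy1]
    exact h.value_nonexc hc hm₂.1 (y := ⟨y, hy⟩) (fun hh => hy1 (congrArg Subtype.val hh))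
  · intro z y hz hy hy1
    rw [hF1 χ₃ hm₃.1.1 z y hz hy hy1]
    exact h.value_nonexc hc hm₃.1 (y := ⟨y, hy⟩) (fun hh => hy1 (congrArg Subtype.val hh))
  · intro ψ hψ z y hz hy1
    rw [hF1 _ (h.mem ψ hψ) z y hz y.2 hy1,
      h.value_exc hc hψ (y := y) (fun hh => hy1 (congrArg Subtype.val hh))]
    simp
  · intro ψ hψ g hg
    have h3 := h.regular_rel hM P.2 hψ hg
    rw [sum_ite_three _ hX hne2 hne3 hne23, ha1] at h3
    have h4 : (oneIrr G : G → ℂ) g = 1 := rfl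
    rw [h4] at h3
    push_cast at h3
    linear_combination h3

end

end Cfsg.Agent.Lib.Helper83
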