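import Cfsg.Agent.Lib.Helper83.BL3Real
import Cfsg.Agent.Lib.Helper82.Invol2

/-!
# `|N:C| = 3`: the case of an elementary abelian Sylow 2-subgroup
-/

set_option autoImplicit false
set_option linter.unusedSectionVars false
open Cfsg
open scoped ComplexConjugate

namespace Cfsg.Agent.Lib.Helper83

open Cfsg.Agent.Lib.Helper20 Cfsg.Agent.Lib.Helper46 Cfsg.Agent.Lib.Helper81
  Cfsg.Agent.Lib.Helper51

section grp

variable {G : Type*} [Group G] [Finite G]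

/-- there is an element of `P^#` not `N`-conjugate to a given one -/
theorem exists_not_normalizer_conj (P : Subgroup G)
    (hCN : (Subgroup.centralizer (P : Set G)).relIndex (Subgroup.normalizer (P : Set G)) = 3)
    (hcard : 3 + 1 < Nat.card P) {t₁ : G} (ht₁ : t₁ ∈ P) :
    ∃ t₂ ∈ P, t₂ ≠ 1 ∧ ∀ n ∈ Subgroup.normalizer (P : Set G), n * t₁ * n⁻¹ ≠ t₂ := by
  by_contra hcon
  push Not at hcon
  set C' := (Subgroup.centralizer (P : Set G)).subgroupOf (Subgroup.normalizer (P : Set G))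
    with hC'
  let F : (Subgroup.normalizer (P : Set G) ⧸ C') → G :=
    fun q => ((q.out : Subgroup.normalizer (P : Set G)) : G) * t₁ * ((q.out : Subgroup.normalizer (P : Set G)) : G)⁻¹
  have hsub : (P : Set G) \ {1} ⊆ Set.range F := by
    rintro t₂ ⟨h1, h2⟩
    obtain ⟨n, hn, hnt⟩ := hcon t₂ h1 h2
    obtain ⟨c, hc⟩ := QuotientGroup.mk_out_eq_mul C' ⟨n, hn⟩
    refine ⟨QuotientGroup.mk ⟨n, hn⟩, ?_⟩
    show ((((QuotientGroup.mk ⟨n, hn⟩ : Subgroup.normalizer (P : Set G) ⧸ C').out :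
      Subgroup.normalizer (P : Set G)) : G)) * t₁ * _ = t₂
    rw [hc]
    have hcC : ((c : Subgroup.normalizer (P : Set G)) : G) ∈ Subgroup.centralizer (P : Set G) :=
      Subgroup.mem_subgroupOf.1 c.2
    have h3 := Subgroup.mem_centralizer_iff.1 hcC t₁ ht₁
    rw [← hnt]
    show n * ((c : Subgroup.normalizer (P : Set G)) : G) * t₁
      * (n * ((c : Subgroup.normalizer (P : Set G)) : G))⁻¹ = n * t₁ * n⁻¹
    rw [mul_assoc n, ← h3]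
    group
  have h1 : ((P : Set G) \ {1}).ncard ≤ (Set.range F).ncard :=
    Set.ncard_le_ncard hsub (Set.toFinite _)
  have h2 : (Set.range F).ncard ≤ 3 := by
    rw [← Set.image_univ]
    refine (Set.ncard_image_le (Set.toFinite _)).trans ?_
    rw [Set.ncard_univ]
    have : Nat.card (Subgroup.normalizer (P : Set G) ⧸ C') = 3 := hCN
    omega
  have h3 : ((P : Set G) \ {1}).ncard = Nat.card P - 1 := by
    rw [Set.ncard_sdiff_singleton_of_mem (Subgroup.one_mem P)]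
    rfl
  omega

end grp

section gen

variable {G : Type*} [Group G] [Fintype G] [Fintype (IrrCharacter G)] {p : ℕ} [Fact p.Prime]
  {M : Ideal AlgInt}

/-- If all products `t₁ t₂^g` are `p`-singular, the block part of the class multiplication
coefficient function vanishes on the `p`-regular elements. -/
theorem block_struct_const_regular (hM : IsPModular p M) (B : Set (IrrCharacter G))
    (hB : IsPBlock M B) {t₁ t₂ u : G} (hsing : ∀ g : G, p ∣ orderOf (t₁ * (g * t₂ * g⁻¹)))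
    (hu : ¬ p ∣ orderOf u) :
    ∑ᶠ χ ∈ B, ((χ : G → ℂ) t₁ * (χ : G → ℂ) t₂ / (χ : G → ℂ) 1) * conj ((χ : G → ℂ) u) = 0 := by
  classical
  have h1 : ∀ g : G, bS B (t₁ * (g * t₂ * g⁻¹)) u = 0 :=
    fun g => (bS_regular_singular hM B hB hu (hsing g)).2
  have h2 : ∑ g : G, bS B (t₁ * (g * t₂ * g⁻¹)) u = 0 := Finset.sum_eq_zero (fun g _ => h1 g)
  simp only [bS, finsum_mem_irr] at h2
  rw [Finset.sum_comm] at h2
  have hG : (Nat.card G : ℂ) ≠ 0 := card_ne_zero_complex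
  have h3 : ∀ χ : IrrCharacter G, (∑ g : G, if χ ∈ B then
      (χ : G → ℂ) (t₁ * (g * t₂ * g⁻¹)) * conj ((χ : G → ℂ) u) else 0)
      = (Nat.card G : ℂ) * (if χ ∈ B then
        ((χ : G → ℂ) t₁ * (χ : G → ℂ) t₂ / (χ : G → ℂ) 1) * conj ((χ : G → ℂ) u) else 0) := by
    intro χ
    split_ifs
    · rw [← Finset.sum_mul, sum_char_conj_mul χ.2]; ring
    · simp
  rw [Finset.sum_congr rfl (fun χ _ => h3 χ), ← Finset.mul_sum] at h2
  rw [finsum_mem_irr]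
  exact (mul_eq_zero.1 h2).resolve_left hG

theorem exists_conj_pPart_of_singular (P : Sylow p G) {g : G} (hg : p ∣ orderOf g) :
    ∃ c y : G, y ∈ (P : Subgroup G) ∧ y ≠ 1 ∧ IsPPart p (c * g * c⁻¹) y := by
  have hp : p.Prime := Fact.out
  obtain ⟨y', hy'⟩ := exists_isPPart hp g
  obtain ⟨c, hc⟩ := exists_conj_mem_sylow_of_pelem P hy'.choose_spec.2.2.1
  refine ⟨c, c * y' * c⁻¹, hc, ?_, isPPart_conj hy' c⟩
  intro h
  apply isPPart_ne_one_of_singular hg hy'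
  have : y' = c⁻¹ * (c * y' * c⁻¹) * c := by group
  rw [this, h]; group

end gen

section

variable {G : Type*} [Group G] [Fintype G] [Fintype (IrrCharacter G)] {p : ℕ} [Fact p.Prime]
  {M : Ideal AlgInt}

variable {P : Sylow p G} [Fintype ((P : Subgroup G) →* ℂˣ)] {ε : ℤ}
  {ζ : ((P : Subgroup G) →* ℂˣ) → IrrCharacter G} {e₂ e₃ : ℤ} {χ₂ χ₃ : IrrCharacter G}

open Classical in
theorem BL3.sum_block (h : BL3 M p (P : Subgroup G) ε ζ e₂ e₃ χ₂ χ₃) (F : IrrCharacter G → ℂ) :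
    ∑ᶠ χ ∈ principalBlock M G, F χ = F (oneIrr G) + F χ₂ + F χ₃
      + ∑ χ : IrrCharacter G, if χ ∈ excSet ζ then F χ else 0 := by
  rw [finsum_mem_irr, ← sum_ite_three _ h.nonexc h.ne2 h.ne3 h.ne23, ← Finset.sum_add_distrib]
  apply Finset.sum_congr rfl
  intro χ _
  by_cases hY : χ ∈ excSet ζ
  · rw [if_pos (h.exc_sub hY), if_neg (fun hh => hh.2 hY), if_pos hY, zero_add]
  · by_cases hB : χ ∈ principalBlock M G
    · rw [if_pos hB, if_pos ⟨hB, hY⟩, if_neg hY, add_zero]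
    · rw [if_neg hB, if_neg (fun hh => hB hh.1), if_neg hY, add_zero]

theorem BL3.eps_mul (h : BL3 M p (P : Subgroup G) ε ζ e₂ e₃ χ₂ χ₃) : (ε : ℂ) * ε = 1 := by
  rcases h.eps with h | h <;> rw [h] <;> norm_num

theorem BL3.e2_mul (h : BL3 M p (P : Subgroup G) ε ζ e₂ e₃ χ₂ χ₃) : (e₂ : ℂ) * e₂ = 1 := by
  rcases h.e2 with h | h <;> rw [h] <;> norm_num

theorem BL3.e3_mul (h : BL3 M p (P : Subgroup G) ε ζ e₂ e₃ χ₂ χ₃) : (e₃ : ℂ) * e₃ = 1 := by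
  rcases h.e3 with h | h <;> rw [h] <;> norm_num

/-- exceptional characters on `p`-regular elements -/
theorem BL3.exc_reg (h : BL3 M p (P : Subgroup G) ε ζ e₂ e₃ χ₂ χ₃) {η : IrrCharacter G}
    (hη : η ∈ excSet ζ) {g : G} (hg : ¬ p ∣ orderOf g) :
    (η : G → ℂ) g = (ε : ℂ) * (1 + (e₂ : ℂ) * (χ₂ : G → ℂ) g + (e₃ : ℂ) * (χ₃ : G → ℂ) g) := by
  obtain ⟨φ, hφ, rfl⟩ := hη
  have h1 := h.reg φ hφ g hg
  have h2 := h.eps_mul
  linear_combination (-(ε : ℂ)) * h1 - (ζ φ : G → ℂ) g * h2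

theorem isPPart_self_of_mem {y : G} (hy : y ∈ (P : Subgroup G)) : IsPPart p y y := by
  apply isPPart_self _ Fact.out
  obtain ⟨k, hk⟩ := (IsPGroup.iff_orderOf.1 P.2) ⟨y, hy⟩
  exact ⟨k, by rw [← hk, ← Subgroup.orderOf_coe]⟩

open Classical in
/-- orthogonality of two columns -/
theorem BL3.sum_exc_two (h : BL3 M p (P : Subgroup G) ε ζ e₂ e₃ χ₂ χ₃) (hM : IsPModular p M)
    {t₁ t₂ : G} (ht₁ : t₁ ∈ (P : Subgroup G)) (ht₁1 : t₁ ≠ 1) (ht₂ : t₂ ∈ (P : Subgroup G))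
    (ht₂1 : t₂ ≠ 1) (hnc : ¬ IsConj t₁ t₂) :
    (∑ χ : IrrCharacter G, if χ ∈ excSet ζ then (χ : G → ℂ) t₁ * (χ : G → ℂ) t₂⁻¹ else 0) = -3 := by
  have h1 := orth_pelem hM _ (Cfsg.Agent.S0936.isPBlock_principal (G := G) M)
    (isPPart_self_of_mem ht₁).choose_spec.2.2.1 t₂ t₂ (isPPart_self_of_mem ht₂) hnc
  rw [h.sum_block] at h1
  have hi : t₂⁻¹ ∈ (P : Subgroup G) := Subgroup.inv_mem _ ht₂
  have hi1 : t₂⁻¹ ≠ 1 := inv_ne_one.2 ht₂1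
  rw [h.val2 t₁ t₁ (isPPart_self_of_mem ht₁) ht₁ ht₁1, h.val3 t₁ t₁ (isPPart_self_of_mem ht₁) ht₁ ht₁1,
    h.val2 _ _ (isPPart_self_of_mem hi) hi hi1, h.val3 _ _ (isPPart_self_of_mem hi) hi hi1] at h1
  have e1 : (oneIrr G : G → ℂ) t₁ = 1 := rfl
  have e2 : (oneIrr G : G → ℂ) t₂⁻¹ = 1 := rfl
  rw [e1, e2] at h1
  linear_combination h1 - h.e2_mul - h.e3_mul

open Classical in
/-- the relation on `p`-regular elements coming from two non-conjugate involutions -/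
theorem BL3.elem_rel (h : BL3 M p (P : Subgroup G) ε ζ e₂ e₃ χ₂ χ₃) (hM : IsPModular p M)
    {t₁ t₂ : G} (ht₁ : t₁ ∈ (P : Subgroup G)) (ht₁1 : t₁ ≠ 1) (ht₂ : t₂ ∈ (P : Subgroup G))
    (ht₂1 : t₂ ≠ 1) (hnc : ¬ IsConj t₁ t₂) (hinv : t₂⁻¹ = t₂)
    (hsing : ∀ g : G, p ∣ orderOf (t₁ * (g * t₂ * g⁻¹))) {u : G} (hu : ¬ p ∣ orderOf u)
    {ψ₀ : (P : Subgroup G) →* ℂˣ} (hψ₀ : ψ₀ ≠ 1) :
    1 + conj ((χ₂ : G → ℂ) u) / (χ₂ : G → ℂ) 1 + conj ((χ₃ : G → ℂ) u) / (χ₃ : G → ℂ) 1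
      - 3 * (conj ((ζ ψ₀ : G → ℂ) u) / (ζ ψ₀ : G → ℂ) 1) = 0 := by
  have h0 := block_struct_const_regular hM _ (Cfsg.Agent.S0936.isPBlock_principal (G := G) M)
    hsing hu
  rw [h.sum_block] at h0
  have h1reg : ¬ p ∣ orderOf (1 : G) := by
    rw [orderOf_one, Nat.dvd_one]; exact (Fact.out : p.Prime).one_lt.ne'
  have hY : ∀ χ : IrrCharacter G, (if χ ∈ excSet ζ then
      ((χ : G → ℂ) t₁ * (χ : G → ℂ) t₂ / (χ : G → ℂ) 1) * conj ((χ : G → ℂ) u) else 0)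
      = (if χ ∈ excSet ζ then (χ : G → ℂ) t₁ * (χ : G → ℂ) t₂⁻¹ else 0)
        * (conj ((ζ ψ₀ : G → ℂ) u) / (ζ ψ₀ : G → ℂ) 1) := by
    intro χ
    split_ifs with hχ
    · rw [h.exc_reg hχ hu, h.exc_reg hχ h1reg, h.exc_reg ⟨ψ₀, hψ₀, rfl⟩ hu,
        h.exc_reg ⟨ψ₀, hψ₀, rfl⟩ h1reg, hinv]
      ring
    · rw [zero_mul]
  rw [Finset.sum_congr rfl (fun χ _ => hY χ), ← Finset.sum_mul,
    h.sum_exc_two hM ht₁ ht₁1 ht₂ ht₂1 hnc,
    h.val2 t₁ t₁ (isPPart_self_of_mem ht₁) ht₁ ht₁1, h.val3 t₁ t₁ (isPPart_self_of_mem ht₁) ht₁ ht₁1,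
    h.val2 t₂ t₂ (isPPart_self_of_mem ht₂) ht₂ ht₂1,
    h.val3 t₂ t₂ (isPPart_self_of_mem ht₂) ht₂ ht₂1] at h0
  have e1 : ∀ x : G, (oneIrr G : G → ℂ) x = 1 := fun _ => rfl
  rw [e1, e1, e1, e1, h.e2_mul, h.e3_mul] at h0
  simp only [map_one] at h0
  linear_combination h0

open Classical in
/-- the norm of a combination of the three non-exceptional characters on the regular elements -/
theorem BL3.reg_norm (h : BL3 M p (P : Subgroup G) ε ζ e₂ e₃ χ₂ χ₃) (k₁ k₂ k₃ : ℤ) :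
    (∑ g : G, if ¬ p ∣ orderOf g then
        Complex.normSq ((k₁ : ℂ) + k₂ * (χ₂ : G → ℂ) g + k₃ * (χ₃ : G → ℂ) g) else 0)
      = (Nat.card G : ℝ) * ((k₁ : ℝ) ^ 2 + (k₂ : ℝ) ^ 2 + (k₃ : ℝ) ^ 2)
        - (Nat.card {g : G // p ∣ orderOf g} : ℝ) * ((k₁ : ℝ) + k₂ * e₂ + k₃ * e₃) ^ 2 := by
  set F : G → ℂ := fun g => (k₁ : ℂ) + k₂ * (χ₂ : G → ℂ) g + k₃ * (χ₃ : G → ℂ) g with hF
  have hG : (Nat.card G : ℂ) ≠ 0 := card_ne_zero_complex
  have hFe : F = (k₁ : ℂ) • (oneIrr G : G → ℂ) + (k₂ : ℂ) • (χ₂ : G → ℂ)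
      + (k₃ : ℂ) • (χ₃ : G → ℂ) := by
    ext g
    have e1 : (oneIrr G : G → ℂ) g = 1 := rfl
    simp [hF, e1]
  have hne : ∀ {a b : IrrCharacter G}, a ≠ b → (a : G → ℂ) ≠ (b : G → ℂ) :=
    fun hab hh => hab (Subtype.ext hh)
  have hinner : classInner F F = (k₁ : ℂ) ^ 2 + (k₂ : ℂ) ^ 2 + (k₃ : ℂ) ^ 2 := by
    rw [hFe]
    simp only [classInner_add_left, classInner_add_right, classInner_smul_left,
      classInner_smul_right, classInner_irr_self (oneIrr G).2, classInner_irr_self χ₂.2,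
      classInner_irr_self χ₃.2, classInner_irr_ne (oneIrr G).2 χ₂.2 (hne h.ne2),
      classInner_irr_ne (oneIrr G).2 χ₃.2 (hne h.ne3), classInner_irr_ne χ₂.2 χ₃.2 (hne h.ne23),
      classInner_irr_ne χ₂.2 (oneIrr G).2 (hne h.ne2.symm),
      classInner_irr_ne χ₃.2 (oneIrr G).2 (hne h.ne3.symm),
      classInner_irr_ne χ₃.2 χ₂.2 (hne h.ne23.symm), map_intCast]
    ring
  have htot : (∑ g : G, Complex.normSq (F g)) = (Nat.card G : ℝ) * ((k₁ : ℝ) ^ 2 + (k₂ : ℝ) ^ 2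
      + (k₃ : ℝ) ^ 2) := by
    have h1 : ((∑ g : G, Complex.normSq (F g) : ℝ) : ℂ) = (Nat.card G : ℂ) * classInner F F := by
      rw [classInner, ← mul_assoc, mul_inv_cancel₀ hG, one_mul]
      push_cast
      apply Finset.sum_congr rfl
      intro g _
      rw [Complex.mul_conj]
    rw [hinner] at h1
    exact_mod_cast h1
  have hsing : ∀ g : G, p ∣ orderOf g →
      Complex.normSq (F g) = ((k₁ : ℝ) + k₂ * e₂ + k₃ * e₃) ^ 2 := by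
    intro g hg
    obtain ⟨c, y, hy, hy1, hpart⟩ := exists_conj_pPart_of_singular P hg
    have h2 : F g = (((k₁ : ℝ) + k₂ * e₂ + k₃ * e₃ : ℝ) : ℂ) := by
      simp only [hF]
      rw [← irr_conj_eq χ₂ g c, ← irr_conj_eq χ₃ g c, h.val2 _ y hpart hy hy1,
        h.val3 _ y hpart hy hy1]
      push_cast; ring
    rw [h2, Complex.normSq_ofReal, pow_two]
  have hsplit : ∀ g : G, Complex.normSq (F g) = (if ¬ p ∣ orderOf g then Complex.normSq (F g) else 0)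
      + (if p ∣ orderOf g then ((k₁ : ℝ) + k₂ * e₂ + k₃ * e₃) ^ 2 else 0) := by
    intro g
    by_cases hg : p ∣ orderOf g
    · rw [if_neg (not_not.2 hg), if_pos hg, hsing g hg, zero_add]
    · rw [if_pos hg, if_neg hg, add_zero]
  rw [Finset.sum_congr rfl (fun g _ => hsplit g), Finset.sum_add_distrib] at htot
  have hcount : (∑ g : G, if p ∣ orderOf g then ((k₁ : ℝ) + k₂ * e₂ + k₃ * e₃) ^ 2 else 0)
      = (Nat.card {g : G // p ∣ orderOf g} : ℝ) * ((k₁ : ℝ) + k₂ * e₂ + k₃ * e₃) ^ 2 := by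
    rw [← Finset.sum_filter, Finset.sum_const, nsmul_eq_mul, Nat.card_eq_fintype_card,
      Fintype.card_subtype]
  rw [hcount] at htot
  linarith

open Classical in
/-- the three non-exceptional characters are independent on the `p`-regular elements -/
theorem BL3.indep (h : BL3 M p (P : Subgroup G) ε ζ e₂ e₃ χ₂ χ₃)
    {ψ₀ : (P : Subgroup G) →* ℂˣ} (hψ₀ : ψ₀ ≠ 1) (k₁ k₂ k₃ : ℤ)
    (hk : ∀ u : G, ¬ p ∣ orderOf u →
      (k₁ : ℂ) + k₂ * (χ₂ : G → ℂ) u + k₃ * (χ₃ : G → ℂ) u = 0) :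
    k₁ = 0 ∧ k₂ = 0 ∧ k₃ = 0 := by
  have h1reg : ¬ p ∣ orderOf (1 : G) := by
    rw [orderOf_one, Nat.dvd_one]; exact (Fact.out : p.Prime).one_lt.ne'
  have hA := h.reg_norm 1 e₂ e₃
  have hB := h.reg_norm k₁ k₂ k₃
  have hB0 : (∑ g : G, if ¬ p ∣ orderOf g then
        Complex.normSq ((k₁ : ℂ) + k₂ * (χ₂ : G → ℂ) g + k₃ * (χ₃ : G → ℂ) g) else 0) = 0 := by
    apply Finset.sum_eq_zero
    intro g _
    split_ifs with hg
    · rfl
    · rw [hk g hg, map_zero]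
  rw [hB0] at hB
  have hApos : 0 < (∑ g : G, if ¬ p ∣ orderOf g then
        Complex.normSq (((1 : ℤ) : ℂ) + e₂ * (χ₂ : G → ℂ) g + e₃ * (χ₃ : G → ℂ) g) else 0) := by
    have hnn : ∀ g ∈ (Finset.univ : Finset G), (0 : ℝ) ≤ (if ¬ p ∣ orderOf g then
        Complex.normSq (((1 : ℤ) : ℂ) + e₂ * (χ₂ : G → ℂ) g + e₃ * (χ₃ : G → ℂ) g) else 0) := by
      intro g _
      split_ifs
      · exact le_refl _
      · exact Complex.normSq_nonneg _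
    refine lt_of_lt_of_le ?_ (Finset.single_le_sum hnn (Finset.mem_univ (1 : G)))
    rw [if_pos h1reg, Complex.normSq_pos]
    intro h0
    have h2 := h.exc_reg ⟨ψ₀, hψ₀, rfl⟩ h1reg
    rw [Int.cast_one] at h0
    rw [h0, mul_zero] at h2
    exact irr_one_ne_zero (ζ ψ₀).2 h2
  rw [hA] at hApos
  have he2 : (e₂ : ℝ) * e₂ = 1 := by rcases h.e2 with h | h <;> rw [h] <;> norm_num
  have he3 : (e₃ : ℝ) * e₃ = 1 := by rcases h.e3 with h | h <;> rw [h] <;> norm_num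
  set Gc : ℝ := (Nat.card G : ℝ)
  set s : ℝ := (Nat.card {g : G // p ∣ orderOf g} : ℝ) with hs
  have hs0 : 0 ≤ s := Nat.cast_nonneg _
  have hpos : 0 < Gc - 3 * s := by
    have e1 : ((1 : ℤ) : ℝ) ^ 2 + (e₂ : ℝ) ^ 2 + (e₃ : ℝ) ^ 2 = 3 := by
      rw [pow_two (e₂ : ℝ), pow_two (e₃ : ℝ), he2, he3]; norm_num
    have e2 : (((1 : ℤ) : ℝ) + e₂ * e₂ + e₃ * e₃) ^ 2 = 9 := by
      rw [he2, he3]; norm_num
    rw [e1, e2] at hApos
    linarith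
  have hCS : ((k₁ : ℝ) + k₂ * e₂ + k₃ * e₃) ^ 2
      ≤ 3 * ((k₁ : ℝ) ^ 2 + (k₂ : ℝ) ^ 2 + (k₃ : ℝ) ^ 2) := by
    have q1 := sq_nonneg ((k₁ : ℝ) - k₂ * e₂)
    have q2 := sq_nonneg ((k₁ : ℝ) - k₃ * e₃)
    have q3 := sq_nonneg ((k₂ : ℝ) * e₂ - k₃ * e₃)
    have r2 : ((k₂ : ℝ) * e₂) ^ 2 = (k₂ : ℝ) ^ 2 := by
      calc ((k₂ : ℝ) * e₂) ^ 2 = (k₂ : ℝ) ^ 2 * ((e₂ : ℝ) * e₂) := by ring
        _ = _ := by rw [he2, mul_one]
    have r3 : ((k₃ : ℝ) * e₃) ^ 2 = (k₃ : ℝ) ^ 2 := by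
      calc ((k₃ : ℝ) * e₃) ^ 2 = (k₃ : ℝ) ^ 2 * ((e₃ : ℝ) * e₃) := by ring
        _ = _ := by rw [he3, mul_one]
    nlinarith
  have hK0 : (k₁ : ℝ) ^ 2 + (k₂ : ℝ) ^ 2 + (k₃ : ℝ) ^ 2 ≤ 0 := by
    by_contra hcon
    push Not at hcon
    have h5 : s * ((k₁ : ℝ) + k₂ * e₂ + k₃ * e₃) ^ 2
        ≤ s * (3 * ((k₁ : ℝ) ^ 2 + (k₂ : ℝ) ^ 2 + (k₃ : ℝ) ^ 2)) :=
      mul_le_mul_of_nonneg_left hCS hs0
    have h6 : 0 < (Gc - 3 * s) * ((k₁ : ℝ) ^ 2 + (k₂ : ℝ) ^ 2 + (k₃ : ℝ) ^ 2) :=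
      mul_pos hpos hcon
    nlinarith
  have z1 : (k₁ : ℝ) = 0 := by nlinarith [sq_nonneg (k₁ : ℝ), sq_nonneg (k₂ : ℝ), sq_nonneg (k₃ : ℝ)]
  have z2 : (k₂ : ℝ) = 0 := by nlinarith [sq_nonneg (k₁ : ℝ), sq_nonneg (k₂ : ℝ), sq_nonneg (k₃ : ℝ)]
  have z3 : (k₃ : ℝ) = 0 := by nlinarith [sq_nonneg (k₁ : ℝ), sq_nonneg (k₂ : ℝ), sq_nonneg (k₃ : ℝ)]
  exact ⟨by exact_mod_cast z1, by exact_mod_cast z2, by exact_mod_cast z3⟩

/-- **The elementary abelian case does not occur.** -/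
theorem BL3.elem_false [IsMulCommutative P] (h : BL3 M p (P : Subgroup G) ε ζ e₂ e₃ χ₂ χ₃)
    (hM : IsPModular p M)
    (hCN : (Subgroup.centralizer ((P : Subgroup G) : Set G)).relIndex
      (Subgroup.normalizer ((P : Subgroup G) : Set G)) = 3)
    (hcard : 3 + 1 < Nat.card (P : Subgroup G))
    (hE : ∀ y : (P : Subgroup G), y * y = 1)
    {t : G} (ht : orderOf t = 2) (hK : ∀ K : Subgroup G, K.Normal → t ∈ K → K = ⊤) : False := by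
  have hc : ∀ a b : (P : Subgroup G), a * b = b * a :=
    fun a b => (inferInstance : IsMulCommutative P).is_comm.comm a b
  have hp : p.Prime := Fact.out
  -- `p = 2`
  obtain ⟨y₀, hy₀⟩ : ∃ y₀ : (P : Subgroup G), y₀ ≠ 1 := by
    by_contra hcon
    push Not at hcon
    have : Nat.card (P : Subgroup G) = 1 := by
      rw [Nat.card_eq_one_iff_unique]
      exact ⟨⟨fun a b => by rw [hcon a, hcon b]⟩, ⟨1⟩⟩
    omega
  have hp2 : p = 2 := by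
    obtain ⟨k, hk⟩ := (IsPGroup.iff_orderOf.1 P.2) y₀
    have h2 : orderOf y₀ = 2 := orderOf_eq_prime (by rw [pow_two]; exact hE y₀) hy₀
    rw [h2] at hk
    have : p ∣ 2 := by
      rcases Nat.eq_zero_or_pos k with rfl | hk0
      · simp at hk
      · rw [hk]; exact dvd_pow_self p hk0.ne'
    exact (Nat.prime_dvd_prime_iff_eq hp Nat.prime_two).1 this
  -- conjugate `t` into `P`
  obtain ⟨c, hcP⟩ := exists_conj_mem_sylow_of_pelem P (y := t) ⟨1, by rw [ht, hp2, pow_one]⟩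
  set t₁ := c * t * c⁻¹ with ht₁def
  have ht1 : t ≠ 1 := by
    intro h1; rw [h1, orderOf_one] at ht; omega
  have ht₁1 : t₁ ≠ 1 := by
    intro h1
    apply ht1
    have : t = c⁻¹ * t₁ * c := by rw [ht₁def]; group
    rw [this, h1]; group
  obtain ⟨t₂, ht₂, ht₂1, hnN⟩ := exists_not_normalizer_conj (P : Subgroup G) hCN hcard hcP
  have hsq₁ : t₁ * t₁ = 1 := congrArg Subtype.val (hE ⟨t₁, hcP⟩)
  have hsq₂ : t₂ * t₂ = 1 := congrArg Subtype.val (hE ⟨t₂, ht₂⟩)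
  have hinv : t₂⁻¹ = t₂ := inv_eq_of_mul_eq_one_left hsq₂
  have hnc : ¬ IsConj t₁ t₂ := by
    intro hconj
    obtain ⟨g, hg⟩ := isConj_iff.1 hconj
    obtain ⟨n, hn, hn2⟩ := abelian_sylow_fusion P hcP g (by rw [hg]; exact ht₂)
    exact hnN n hn (hn2.trans hg)
  have hsing : ∀ g : G, p ∣ orderOf (t₁ * (g * t₂ * g⁻¹)) := by
    intro g
    by_contra hnd
    rw [hp2] at hnd
    have hodd : Odd (orderOf (t₁ * (g * t₂ * g⁻¹))) := by
      rw [← Nat.not_even_iff_odd, even_iff_two_dvd]; exact hnd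
    have hsq₃ : (g * t₂ * g⁻¹) * (g * t₂ * g⁻¹) = 1 := by
      calc (g * t₂ * g⁻¹) * (g * t₂ * g⁻¹) = g * (t₂ * t₂) * g⁻¹ := by group
        _ = 1 := by rw [hsq₂]; group
    have h1 := Cfsg.Agent.Lib.Helper82.isConj_of_odd_orderOf_mul hsq₁ hsq₃ hodd
    apply hnc
    have h2 : IsConj t₂ (g * t₂ * g⁻¹) := isConj_iff.2 ⟨g, rfl⟩
    exact (h2.trans h1).symm
  obtain ⟨ψ₀, hψ₀'⟩ := exists_hom_ne_one hc hy₀
  have hψ₀ : ψ₀ ≠ 1 := by
    intro h1; apply hψ₀'; rw [h1]; rfl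
  obtain ⟨f₂, hf₂pos, hf₂⟩ := isIrr_one χ₂.2
  obtain ⟨f₃, hf₃pos, hf₃⟩ := isIrr_one χ₃.2
  obtain ⟨f₄, hf₄pos, hf₄⟩ := isIrr_one (ζ ψ₀).2
  have hf₂0 : (f₂ : ℂ) ≠ 0 := by exact_mod_cast hf₂pos.ne'
  have hf₃0 : (f₃ : ℂ) ≠ 0 := by exact_mod_cast hf₃pos.ne'
  have hf₄0 : (f₄ : ℂ) ≠ 0 := by exact_mod_cast hf₄pos.ne'
  obtain ⟨k1, k2, -⟩ := h.indep hψ₀ ((f₂ : ℤ) * f₃ * f₄ - 3 * ε * f₂ * f₃)
    ((f₃ : ℤ) * f₄ - 3 * ε * e₂ * f₂ * f₃) ((f₂ : ℤ) * f₄ - 3 * ε * e₃ * f₂ * f₃) (by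
      intro u hu
      have h1 := h.elem_rel hM hcP ht₁1 ht₂ ht₂1 hnc hinv hsing hu hψ₀
      rw [hf₂, hf₃, hf₄, h.exc_reg ⟨ψ₀, hψ₀, rfl⟩ hu] at h1
      have h2 := congrArg conj h1
      simp only [map_add, map_sub, map_mul, map_div₀, map_one, map_zero, Complex.conj_conj,
        map_natCast, map_intCast, map_ofNat] at h2
      field_simp at h2
      push_cast
      linear_combination h2)
  have hε := h.eps
  have he₂ := h.e2
  have hf23 : (0 : ℤ) < (f₂ : ℤ) * f₃ := by positivity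
  have k1' : (f₂ : ℤ) * f₃ * ((f₄ : ℤ) - 3 * ε) = 0 := by linear_combination k1
  have k1'' : (f₄ : ℤ) = 3 * ε := by
    rcases mul_eq_zero.1 k1' with h5 | h5
    · omega
    · omega
  have k2' : (f₃ : ℤ) * ((f₄ : ℤ) - 3 * ε * e₂ * f₂) = 0 := by linear_combination k2
  have k2'' : (f₄ : ℤ) = 3 * ε * e₂ * f₂ := by
    rcases mul_eq_zero.1 k2' with h5 | h5
    · have : (0 : ℤ) < f₃ := by exact_mod_cast hf₃pos
      omega
    · omega
  have hε1 : ε = 1 := by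
    rcases hε with h5 | h5
    · exact h5
    · rw [h5] at k1''
      have : (0 : ℤ) < f₄ := by exact_mod_cast hf₄pos
      omega
  have hfe : e₂ = 1 ∧ (f₂ : ℤ) = 1 := by
    rw [hε1] at k1'' k2''
    have hf : (0 : ℤ) < f₂ := by exact_mod_cast hf₂pos
    rcases he₂ with h5 | h5
    · rw [h5] at k2''
      exact ⟨h5, by omega⟩
    · rw [h5] at k2''
      omega
  apply irr_ker_ne_top χ₂ h.ne2.symm
  apply hK _ inferInstance
  rw [Cfsg.Agent.Lib.Helper82.mem_charKer, ← irr_conj_eq χ₂ t c,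
    h.val2 t₁ t₁ (isPPart_self_of_mem hcP) hcP ht₁1, hf₂, hfe.1]
  have : f₂ = 1 := by exact_mod_cast hfe.2
  rw [this]; simp

end

end Cfsg.Agent.Lib.Helper83
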