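import Cfsg.Agent.Lib.Helper25.BSChar2

/-!
# Brauer's trick with an involution and a column of four signs
-/

set_option autoImplicit false
open Cfsg
open scoped ComplexConjugate

namespace Cfsg.Agent.Lib.Helper83

open Cfsg.Agent.Lib.Helper20 Cfsg.Agent.Lib.Helper81 Cfsg.Agent.Lib.Helper51
  Cfsg.Agent.Lib.Helper82

/-- the arithmetic core: a totally isotropic plane of a diagonal quaternary form -/
theorem trick_arith (e₂ e₃ e₄ f₂ f₃ f₄ v₂ v₃ v₄ : ℤ) (h₂ : e₂ = 1 ∨ e₂ = -1)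
    (h₃ : e₃ = 1 ∨ e₃ = -1) (h₄ : e₄ = 1 ∨ e₄ = -1)
    (R1 : 1 + e₂ * f₂ + e₃ * f₃ + e₄ * f₄ = 0)
    (R2 : 1 + e₂ * v₂ + e₃ * v₃ + e₄ * v₄ = 0)
    (R3 : f₂ * f₃ * f₄ + e₂ * v₂ ^ 2 * f₃ * f₄ + e₃ * v₃ ^ 2 * f₂ * f₄ + e₄ * v₄ ^ 2 * f₂ * f₃ = 0)
    (hw : v₂ ≠ f₂) : IsSquare (e₂ * e₃ * e₄ * (f₂ * f₃ * f₄)) := by
  have hw' : ((v₂ - f₂ : ℤ) : ℚ) ≠ 0 := by
    have : v₂ - f₂ ≠ 0 := sub_ne_zero.2 hw
    exact_mod_cast this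
  have key : ((e₃ * f₂ * f₄ + e₄ * f₂ * f₃) * (v₃ - f₃) + e₂ * e₃ * e₄ * f₂ * f₃ * (v₂ - f₂)) ^ 2
      = (e₂ * e₃ * e₄ * (f₂ * f₃ * f₄)) * (v₂ - f₂) ^ 2 := by
    rcases h₂ with rfl | rfl <;> rcases h₃ with rfl | rfl <;> rcases h₄ with rfl | rfl
    · obtain rfl : f₄ = -(1 + f₂ + f₃) := by linarith
      obtain rfl : v₄ = -(1 + v₂ + v₃) := by linarith
      linear_combination (1 * f₂ * (-(1 + f₂ + f₃)) + 1 * f₂ * f₃) * R3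
    · obtain rfl : f₄ = (1 + f₂ + f₃) := by linarith
      obtain rfl : v₄ = (1 + v₂ + v₃) := by linarith
      linear_combination (1 * f₂ * ((1 + f₂ + f₃)) + (-1) * f₂ * f₃) * R3
    · obtain rfl : f₄ = -(1 + f₂ - f₃) := by linarith
      obtain rfl : v₄ = -(1 + v₂ - v₃) := by linarith
      linear_combination ((-1) * f₂ * (-(1 + f₂ - f₃)) + 1 * f₂ * f₃) * R3
    · obtain rfl : f₄ = (1 + f₂ - f₃) := by linarith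
      obtain rfl : v₄ = (1 + v₂ - v₃) := by linarith
      linear_combination ((-1) * f₂ * ((1 + f₂ - f₃)) + (-1) * f₂ * f₃) * R3
    · obtain rfl : f₄ = -(1 - f₂ + f₃) := by linarith
      obtain rfl : v₄ = -(1 - v₂ + v₃) := by linarith
      linear_combination (1 * f₂ * (-(1 - f₂ + f₃)) + 1 * f₂ * f₃) * R3
    · obtain rfl : f₄ = (1 - f₂ + f₃) := by linarith
      obtain rfl : v₄ = (1 - v₂ + v₃) := by linarith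
      linear_combination (1 * f₂ * ((1 - f₂ + f₃)) + (-1) * f₂ * f₃) * R3
    · obtain rfl : f₄ = -(1 - f₂ - f₃) := by linarith
      obtain rfl : v₄ = -(1 - v₂ - v₃) := by linarith
      linear_combination ((-1) * f₂ * (-(1 - f₂ - f₃)) + 1 * f₂ * f₃) * R3
    · obtain rfl : f₄ = (1 - f₂ - f₃) := by linarith
      obtain rfl : v₄ = (1 - v₂ - v₃) := by linarith
      linear_combination ((-1) * f₂ * ((1 - f₂ - f₃)) + (-1) * f₂ * f₃) * R3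
  rw [← Rat.isSquare_intCast_iff]
  refine ⟨(((e₃ * f₂ * f₄ + e₄ * f₂ * f₃) * (v₃ - f₃) + e₂ * e₃ * e₄ * f₂ * f₃ * (v₂ - f₂) : ℤ) : ℚ)
    / ((v₂ - f₂ : ℤ) : ℚ), ?_⟩
  have key' := congrArg (fun z : ℤ => (z : ℚ)) key
  simp only [Int.cast_mul, Int.cast_pow] at key'
  field_simp
  simp only [Int.cast_mul]
  exact key'.symm

theorem trick_arith' (e₂ e₃ e₄ : ℤ) (f₂ f₃ f₄ : ℕ) (v₂ v₃ v₄ : ℤ) (h₂ : e₂ = 1 ∨ e₂ = -1)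
    (h₃ : e₃ = 1 ∨ e₃ = -1) (h₄ : e₄ = 1 ∨ e₄ = -1)
    (hf₂ : 0 < f₂) (hf₃ : 0 < f₃) (hf₄ : 0 < f₄)
    (R1 : 1 + e₂ * f₂ + e₃ * f₃ + e₄ * f₄ = 0)
    (R2 : 1 + e₂ * v₂ + e₃ * v₃ + e₄ * v₄ = 0)
    (R3 : (f₂ : ℤ) * f₃ * f₄ + e₂ * v₂ ^ 2 * f₃ * f₄ + e₃ * v₃ ^ 2 * f₂ * f₄
      + e₄ * v₄ ^ 2 * f₂ * f₃ = 0)
    (hw : v₂ ≠ f₂) : e₂ * e₃ * e₄ = 1 ∧ ¬ (e₂ = 1 ∧ e₃ = 1 ∧ e₄ = 1) ∧ IsSquare (f₂ * f₃ * f₄) := by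
  have h := trick_arith e₂ e₃ e₄ f₂ f₃ f₄ v₂ v₃ v₄ h₂ h₃ h₄ R1 R2 R3 hw
  have hpos : (0 : ℤ) < (f₂ : ℤ) * f₃ * f₄ := by positivity
  have he : e₂ * e₃ * e₄ = 1 := by
    have h1 : e₂ * e₃ * e₄ = 1 ∨ e₂ * e₃ * e₄ = -1 := by
      rcases h₂ with rfl | rfl <;> rcases h₃ with rfl | rfl <;> rcases h₄ with rfl | rfl <;> simp
    rcases h1 with h1 | h1
    · exact h1
    · rw [h1] at h
      have := h.nonneg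
      linarith
  refine ⟨he, ?_, ?_⟩
  · rintro ⟨rfl, rfl, rfl⟩
    have : (0 : ℤ) < 1 + 1 * (f₂ : ℤ) + 1 * f₃ + 1 * f₄ := by positivity
    omega
  · rw [he, one_mul] at h
    have : IsSquare (((f₂ * f₃ * f₄ : ℕ)) : ℤ) := by push_cast; exact h
    exact Int.isSquare_natCast_iff.1 this

/-- Brauer's trick: a column `1 + e₂ χ₂ + e₃ χ₃ + e₄ χ₄` vanishing at `1`, at the involution `t`
and at all products `t t^g`. -/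
theorem brauer_trick {G : Type*} [Group G] [Finite G] {t : G} (ht : orderOf t = 2)
    (hK : ∀ K : Subgroup G, K.Normal → t ∈ K → K = ⊤)
    (χ₂ χ₃ χ₄ : IrrCharacter G) (hne : χ₂ ≠ oneIrr G)
    (e₂ e₃ e₄ : ℤ) (h₂ : e₂ = 1 ∨ e₂ = -1) (h₃ : e₃ = 1 ∨ e₃ = -1) (h₄ : e₄ = 1 ∨ e₄ = -1)
    (hΘ : ∀ x : G, (x = 1 ∨ x = t ∨ ∃ g : G, x = t * (g * t * g⁻¹)) →
      1 + (e₂ : ℂ) * (χ₂ : G → ℂ) x + (e₃ : ℂ) * (χ₃ : G → ℂ) x + (e₄ : ℂ) * (χ₄ : G → ℂ) x = 0) :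
    e₂ * e₃ * e₄ = 1 ∧ ¬ (e₂ = 1 ∧ e₃ = 1 ∧ e₄ = 1) ∧
      IsSquare (charDegree (χ₂ : G → ℂ) * charDegree (χ₃ : G → ℂ) * charDegree (χ₄ : G → ℂ)) := by
  classical
  have := Fintype.ofFinite G
  have hd : ∀ χ : IrrCharacter G, (χ : G → ℂ) 1 = (charDegree (χ : G → ℂ) : ℂ) :=
    fun χ => isChar_one_eq (isCharacter_of_isIrrCharacter χ.2)
  have hpos : ∀ χ : IrrCharacter G, 0 < charDegree (χ : G → ℂ) :=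
    fun χ => isIrr_charDegree_pos χ.2
  obtain ⟨v₂, hv₂⟩ := Cfsg.Agent.Lib.Helper25.irr_invol_int χ₂ ht
  obtain ⟨v₃, hv₃⟩ := Cfsg.Agent.Lib.Helper25.irr_invol_int χ₃ ht
  obtain ⟨v₄, hv₄⟩ := Cfsg.Agent.Lib.Helper25.irr_invol_int χ₄ ht
  have R1 := hΘ 1 (Or.inl rfl)
  have R2 := hΘ t (Or.inr (Or.inl rfl))
  rw [hd, hd, hd] at R1
  rw [hv₂, hv₃, hv₄] at R2
  have hG : (Nat.card G : ℂ) ≠ 0 := card_ne_zero_complex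
  have R3 : ∑ g : G, (1 + (e₂ : ℂ) * (χ₂ : G → ℂ) (t * (g * t * g⁻¹))
      + (e₃ : ℂ) * (χ₃ : G → ℂ) (t * (g * t * g⁻¹))
      + (e₄ : ℂ) * (χ₄ : G → ℂ) (t * (g * t * g⁻¹))) = 0 :=
    Finset.sum_eq_zero (fun g _ => hΘ _ (Or.inr (Or.inr ⟨g, rfl⟩)))
  rw [Finset.sum_add_distrib, Finset.sum_add_distrib, Finset.sum_add_distrib, ← Finset.mul_sum,
    ← Finset.mul_sum, ← Finset.mul_sum, sum_char_conj_mul χ₂.2, sum_char_conj_mul χ₃.2,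
    sum_char_conj_mul χ₄.2, hd, hd, hd, hv₂, hv₃, hv₄, Finset.sum_const, Finset.card_univ,
    ← Nat.card_eq_fintype_card, nsmul_eq_mul, mul_one] at R3
  have hf₂ : (charDegree (χ₂ : G → ℂ) : ℂ) ≠ 0 := by exact_mod_cast (hpos χ₂).ne'
  have hf₃ : (charDegree (χ₃ : G → ℂ) : ℂ) ≠ 0 := by exact_mod_cast (hpos χ₃).ne'
  have hf₄ : (charDegree (χ₄ : G → ℂ) : ℂ) ≠ 0 := by exact_mod_cast (hpos χ₄).ne'
  have R3' : ((charDegree (χ₂ : G → ℂ) : ℂ)) * (charDegree (χ₃ : G → ℂ) : ℂ)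
        * (charDegree (χ₄ : G → ℂ) : ℂ)
      + e₂ * (v₂ : ℂ) ^ 2 * (charDegree (χ₃ : G → ℂ) : ℂ) * (charDegree (χ₄ : G → ℂ) : ℂ)
      + e₃ * (v₃ : ℂ) ^ 2 * (charDegree (χ₂ : G → ℂ) : ℂ) * (charDegree (χ₄ : G → ℂ) : ℂ)
      + e₄ * (v₄ : ℂ) ^ 2 * (charDegree (χ₂ : G → ℂ) : ℂ) * (charDegree (χ₃ : G → ℂ) : ℂ) = 0 := by
    have h5 : (Nat.card G : ℂ) * (((charDegree (χ₂ : G → ℂ) : ℂ)) * (charDegree (χ₃ : G → ℂ) : ℂ)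
        * (charDegree (χ₄ : G → ℂ) : ℂ)
      + e₂ * (v₂ : ℂ) ^ 2 * (charDegree (χ₃ : G → ℂ) : ℂ) * (charDegree (χ₄ : G → ℂ) : ℂ)
      + e₃ * (v₃ : ℂ) ^ 2 * (charDegree (χ₂ : G → ℂ) : ℂ) * (charDegree (χ₄ : G → ℂ) : ℂ)
      + e₄ * (v₄ : ℂ) ^ 2 * (charDegree (χ₂ : G → ℂ) : ℂ) * (charDegree (χ₃ : G → ℂ) : ℂ)) = 0 := by
      field_simp at R3
      linear_combination R3
    exact (mul_eq_zero.1 h5).resolve_left hG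
  apply trick_arith' e₂ e₃ e₄ _ _ _ v₂ v₃ v₄ h₂ h₃ h₄ (hpos χ₂) (hpos χ₃) (hpos χ₄)
  · exact_mod_cast R1
  · exact_mod_cast R2
  · exact_mod_cast R3'
  · intro hw
    apply irr_ker_ne_top χ₂ hne
    apply hK _ inferInstance
    rw [mem_charKer, hv₂, hd, hw]
    simp

end Cfsg.Agent.Lib.Helper83
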