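import Cfsg.Agent.Lib.Helper83.BL3
import Cfsg.Agent.Lib.Helper83.BrauerTrick
import Cfsg.Agent.Lib.Helper54.StronglyEmbedded
import Cfsg.Agent.Lib.Helper21.DefectCenter2

/-!
# `|N:C| = 3`: real elements and the column of a character trivial on the involutions of `P`
-/

set_option autoImplicit false
set_option linter.unusedSectionVars false
open Cfsg
open scoped ComplexConjugate

namespace Cfsg.Agent.Lib.Helper83

open Cfsg.Agent.Lib.Helper20 Cfsg.Agent.Lib.Helper46 Cfsg.Agent.Lib.Helper81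
  Cfsg.Agent.Lib.Helper51

section grp

variable {G : Type*} [Group G] [Finite G]

/-- an element of `P` inverted by an element of `N_G(P)` is an involution, if `|N:C| = 3` -/
theorem sq_eq_one_of_inverted (P : Subgroup G) (hfree : FreeNC P)
    (hCN : (Subgroup.centralizer (P : Set G)).relIndex (Subgroup.normalizer (P : Set G)) = 3)
    {y n : G} (hy : y ∈ P) (hn : n ∈ Subgroup.normalizer (P : Set G)) (h : n * y * n⁻¹ = y⁻¹) :
    y * y = 1 := by
  by_cases hy1 : y = 1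
  · rw [hy1, mul_one]
  have h2 : n * n ∈ Subgroup.centralizer (P : Set G) := by
    apply hfree _ (Subgroup.mul_mem _ hn hn) y hy hy1
    calc n * n * y * (n * n)⁻¹ = n * (n * y * n⁻¹) * n⁻¹ := by group
      _ = n * y⁻¹ * n⁻¹ := by rw [h]
      _ = (n * y * n⁻¹)⁻¹ := by group
      _ = y := by rw [h, inv_inv]
  have h3 : n ^ 3 ∈ Subgroup.centralizer (P : Set G) := by
    have hnorm : ((Subgroup.centralizer (P : Set G)).subgroupOf
        (Subgroup.normalizer (P : Set G))).Normal := by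
      rw [← Subgroup.normalizerMonoidHom_ker]; infer_instance
    have := Subgroup.pow_index_mem ((Subgroup.centralizer (P : Set G)).subgroupOf
        (Subgroup.normalizer (P : Set G))) ⟨n, hn⟩
    rw [← Subgroup.relIndex, hCN, Subgroup.mem_subgroupOf] at this
    exact this
  have h1 : n ∈ Subgroup.centralizer (P : Set G) := by
    have : n = n ^ 3 * (n * n)⁻¹ := by group
    rw [this]
    exact Subgroup.mul_mem _ h3 (Subgroup.inv_mem _ h2)
  have h4 := Subgroup.mem_centralizer_iff.1 h1 y hy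
  have h5 : y⁻¹ = y := by
    rw [← h, ← h4]; group
  calc y * y = y⁻¹ * y := by rw [h5]
    _ = 1 := inv_mul_cancel y

theorem exists_conj_mem_sylow_of_pelem {p : ℕ} [Fact p.Prime] (P : Sylow p G) {y : G}
    (hy : ∃ k : ℕ, orderOf y = p ^ k) : ∃ c : G, c * y * c⁻¹ ∈ (P : Subgroup G) := by
  obtain ⟨k, hk⟩ := hy
  have hQ : IsPGroup p (Subgroup.zpowers y) := IsPGroup.of_card (n := k) (by
    rw [Nat.card_zpowers, hk])
  obtain ⟨c, -, hc⟩ := Cfsg.Agent.Lib.Helper54.exists_conj_mem_sylow (H := ⊤) P le_top _ hQ le_top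
  exact ⟨c, hc y (Subgroup.mem_zpowers y)⟩

end grp

section

variable {G : Type*} [Group G] [Fintype G] [Fintype (IrrCharacter G)] {p : ℕ} [Fact p.Prime]
  {M : Ideal AlgInt}

theorem irr_conj_eq (χ : IrrCharacter G) (g c : G) : (χ : G → ℂ) (c * g * c⁻¹) = (χ : G → ℂ) g :=
  Cfsg.Agent.Lib.Helper82.isChar_conj_eq (isCharacter_of_isIrrCharacter χ.2) g c

/-- the `p`-part of a real element, conjugated into `P`, is an involution or trivial -/
theorem exists_conj_pPart_of_real (P : Sylow p G) [IsMulCommutative P]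
    (hfree : FreeNC (P : Subgroup G))
    (hCN : (Subgroup.centralizer ((P : Subgroup G) : Set G)).relIndex
      (Subgroup.normalizer ((P : Subgroup G) : Set G)) = 3)
    {x s : G} (hx : s * x * s⁻¹ = x⁻¹) :
    ∃ c y : G, y ∈ (P : Subgroup G) ∧ IsPPart p (c * x * c⁻¹) y ∧ y * y = 1 := by
  have hp : p.Prime := Fact.out
  obtain ⟨y', hy'⟩ := exists_isPPart hp x
  obtain ⟨N, hN⟩ := Cfsg.Agent.Lib.Helper21.isPPart_eq_zpow hp hy'
  have hinv : s * y' * s⁻¹ = y'⁻¹ := by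
    rw [← hN, ← conj_zpow, hx, inv_zpow]
  obtain ⟨c, hc⟩ := exists_conj_mem_sylow_of_pelem P hy'.choose_spec.2.2.1
  refine ⟨c, c * y' * c⁻¹, hc, isPPart_conj hy' c, ?_⟩
  have h1 : (c * s * c⁻¹) * (c * y' * c⁻¹) * (c * s * c⁻¹)⁻¹ = (c * y' * c⁻¹)⁻¹ := by
    calc (c * s * c⁻¹) * (c * y' * c⁻¹) * (c * s * c⁻¹)⁻¹ = c * (s * y' * s⁻¹) * c⁻¹ := by group
      _ = c * y'⁻¹ * c⁻¹ := by rw [hinv]
      _ = (c * y' * c⁻¹)⁻¹ := by group
  obtain ⟨n, hn, hn2⟩ := abelian_sylow_fusion P hc (c * s * c⁻¹) (by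
    rw [h1]; exact Subgroup.inv_mem _ hc)
  exact sq_eq_one_of_inverted (P : Subgroup G) hfree hCN hc hn (hn2.trans h1)

variable {P : Sylow p G} [Fintype ((P : Subgroup G) →* ℂˣ)] {ε : ℤ}
  {ζ : ((P : Subgroup G) →* ℂˣ) → IrrCharacter G} {e₂ e₃ : ℤ} {χ₂ χ₃ : IrrCharacter G}

open Classical in
/-- the orbit sum of a character trivial on the involutions, at an involution -/
theorem orbit_sum_good (hc : ∀ a b : (P : Subgroup G), a * b = b * a)
    (hfree : FreeNC (P : Subgroup G))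
    (hCN : (Subgroup.centralizer ((P : Subgroup G) : Set G)).relIndex
      (Subgroup.normalizer ((P : Subgroup G) : Set G)) = 3)
    {ψ : (P : Subgroup G) →* ℂˣ} (hψ : ψ ≠ 1)
    (hgood : ∀ y : (P : Subgroup G), y * y = 1 → ψ y = 1) {y : (P : Subgroup G)}
    (hy : y * y = 1) :
    (∑ ψ' : (P : Subgroup G) →* ℂˣ,
      if dualRel (P : Subgroup G) ψ ψ' then ((ψ' y : ℂˣ) : ℂ) else 0) = 3 := by
  have h1 : ∀ ψ' : (P : Subgroup G) →* ℂˣ,
      (if dualRel (P : Subgroup G) ψ ψ' then ((ψ' y : ℂˣ) : ℂ) else 0)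
        = if dualRel (P : Subgroup G) ψ ψ' then (1 : ℂ) else 0 := by
    intro ψ'
    split_ifs with hrel
    · obtain ⟨n, hn, hh⟩ := hrel
      have hw : n⁻¹ * (y : G) * n ∈ (P : Subgroup G) := by
        have := (Subgroup.mem_normalizer_iff.1 (Subgroup.inv_mem _ hn) (y : G)).1 y.2
        rwa [inv_inv] at this
      have h2 := hh ⟨n⁻¹ * (y : G) * n, hw⟩ y (by show (y : G) = n * (n⁻¹ * (y : G) * n) * n⁻¹; group)
      rw [h2, hgood]
      · simp
      · apply Subtype.ext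
        show n⁻¹ * (y : G) * n * (n⁻¹ * (y : G) * n) = 1
        have h3 : (y : G) * (y : G) = 1 := congrArg Subtype.val hy
        calc n⁻¹ * (y : G) * n * (n⁻¹ * (y : G) * n) = n⁻¹ * ((y : G) * (y : G)) * n := by group
          _ = 1 := by rw [h3]; group
    · rfl
  rw [Finset.sum_congr rfl (fun ψ' _ => h1 ψ'), Finset.sum_boole, ← Fintype.card_subtype,
    ← Nat.card_eq_fintype_card, card_dualRel_class _ hc hfree hψ, hCN]
  norm_num

/-- the column of a character trivial on the involutions of `P` vanishes at the real elements -/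
theorem BL3.theta_real [IsMulCommutative P] (h : BL3 M p (P : Subgroup G) ε ζ e₂ e₃ χ₂ χ₃)
    (hfree : FreeNC (P : Subgroup G))
    (hCN : (Subgroup.centralizer ((P : Subgroup G) : Set G)).relIndex
      (Subgroup.normalizer ((P : Subgroup G) : Set G)) = 3)
    {ψ : (P : Subgroup G) →* ℂˣ} (hψ : ψ ≠ 1)
    (hgood : ∀ y : (P : Subgroup G), y * y = 1 → ψ y = 1)
    {x s : G} (hx : s * x * s⁻¹ = x⁻¹) :
    1 + (e₂ : ℂ) * (χ₂ : G → ℂ) x + (e₃ : ℂ) * (χ₃ : G → ℂ) x - (ε : ℂ) * (ζ ψ : G → ℂ) x = 0 := by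
  have hc : ∀ a b : (P : Subgroup G), a * b = b * a :=
    fun a b => (inferInstance : IsMulCommutative P).is_comm.comm a b
  obtain ⟨c, y, hyP, hpart, hyy⟩ := exists_conj_pPart_of_real P hfree hCN hx
  rw [← irr_conj_eq χ₂ x c, ← irr_conj_eq χ₃ x c, ← irr_conj_eq (ζ ψ) x c]
  by_cases hy1 : y = 1
  · subst hy1
    obtain ⟨v, hv, -, -, hreg⟩ := hpart
    rw [one_mul] at hv
    rw [← hv]
    exact h.reg ψ hψ v hreg
  · rw [h.val2 _ y hpart hyP hy1, h.val3 _ y hpart hyP hy1, h.valζ ψ hψ _ ⟨y, hyP⟩ hpart hy1,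
      orbit_sum_good hc hfree hCN hψ hgood (y := ⟨y, hyP⟩) (Subtype.ext hyy)]
    have h2 : (e₂ : ℂ) * e₂ = 1 := by rcases h.e2 with h | h <;> rw [h] <;> norm_num
    have h3 : (e₃ : ℂ) * e₃ = 1 := by rcases h.e3 with h | h <;> rw [h] <;> norm_num
    have h4 : (ε : ℂ) * ε = 1 := by rcases h.eps with h | h <;> rw [h] <;> norm_num
    linear_combination h2 + h3 - 3 * h4

/-- existence of a nontrivial character trivial on the involutions -/
theorem exists_good_hom {A : Type*} [Group A] [Finite A] (hc : ∀ a b : A, a * b = b * a)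
    {y : A} (hy : y * y ≠ 1) : ∃ ψ : A →* ℂˣ, ψ ≠ 1 ∧ ∀ w : A, w * w = 1 → ψ w = 1 := by
  obtain ⟨φ, hφ⟩ := exists_hom_ne_one hc hy
  refine ⟨φ * φ, ?_, ?_⟩
  · intro h
    apply hφ
    have := congrArg (fun f : A →* ℂˣ => f y) h
    simpa using this
  · intro w hw
    rw [MonoidHom.mul_apply, ← map_mul, hw, map_one]

/-- **Second part of the theorem, non-elementary case.** -/
theorem BL3.trick [IsMulCommutative P] (h : BL3 M p (P : Subgroup G) ε ζ e₂ e₃ χ₂ χ₃)
    (hfree : FreeNC (P : Subgroup G))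
    (hCN : (Subgroup.centralizer ((P : Subgroup G) : Set G)).relIndex
      (Subgroup.normalizer ((P : Subgroup G) : Set G)) = 3)
    {y₀ : (P : Subgroup G)} (hy₀ : y₀ * y₀ ≠ 1)
    {t : G} (ht : orderOf t = 2) (hK : ∀ K : Subgroup G, K.Normal → t ∈ K → K = ⊤) :
    ∃ ψ : (P : Subgroup G) →* ℂˣ, ψ ≠ 1 ∧ e₂ * e₃ * (-ε) = 1 ∧ ¬ (e₂ = 1 ∧ e₃ = 1 ∧ -ε = 1) ∧
      IsSquare (charDegree (χ₂ : G → ℂ) * charDegree (χ₃ : G → ℂ)
        * charDegree (ζ ψ : G → ℂ)) := by
  have hc : ∀ a b : (P : Subgroup G), a * b = b * a :=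
    fun a b => (inferInstance : IsMulCommutative P).is_comm.comm a b
  obtain ⟨ψ, hψ, hgood⟩ := exists_good_hom hc hy₀
  refine ⟨ψ, hψ, ?_⟩
  have htt : t * t = 1 := by rw [← pow_two, ← ht, pow_orderOf_eq_one]
  have hti : t⁻¹ = t := inv_eq_of_mul_eq_one_left htt
  apply brauer_trick ht hK χ₂ χ₃ (ζ ψ) h.ne2.symm e₂ e₃ (-ε) h.e2 h.e3
    (by rcases h.eps with h | h <;> rw [h] <;> simp)
  intro x hx
  have hreal : ∃ s : G, s * x * s⁻¹ = x⁻¹ := by
    rcases hx with rfl | rfl | ⟨g, rfl⟩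
    · exact ⟨1, by simp⟩
    · exact ⟨1, by simp [hti]⟩
    · refine ⟨t, ?_⟩
      rw [mul_inv_rev, mul_inv_rev, mul_inv_rev, inv_inv, hti]
      calc t * (t * (g * t * g⁻¹)) * t = (t * t) * (g * t * g⁻¹) * t := by group
        _ = g * (t * g⁻¹) * t := by rw [htt]; group
  obtain ⟨s, hs⟩ := hreal
  have := h.theta_real hfree hCN hψ hgood hs
  push_cast
  linear_combination this

end

end Cfsg.Agent.Lib.Helper83
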