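import Cfsg.Agent.Lib.Helper83.BLShape

/-!
# The Brauer–Leonard shape when `|N:C| = 3`
-/

set_option autoImplicit false
set_option linter.unusedSectionVars false
open Cfsg
open scoped ComplexConjugate

namespace Cfsg.Agent.Lib.Helper83

open Cfsg.Agent.Lib.Helper20 Cfsg.Agent.Lib.Helper46 Cfsg.Agent.Lib.Helper81
  Cfsg.Agent.Lib.Helper51

section

variable {G : Type*} [Group G] [Fintype G] [Fintype (IrrCharacter G)] {p : ℕ} [Fact p.Prime]
  {M : Ideal AlgInt}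

variable {P : Subgroup G} [Fintype P] {ε d : ℤ} {ζ : (P →* ℂˣ) → IrrCharacter G}
  {a : IrrCharacter G → ℤ}

/-- the principal character is not exceptional -/
theorem BLShape.one_not_exc (h : BLShape M P ε d ζ a) {ψ₀ ψ₁ : P →* ℂˣ} (hψ₀ : ψ₀ ≠ 1)
    (hψ₁ : ψ₁ ≠ 1) (hnrel : ¬ dualRel P ψ₀ ψ₁) : oneIrr G ∉ excSet ζ := by
  classical
  rintro ⟨φ, hφ, he⟩
  obtain ⟨φ', hφ', hn⟩ : ∃ φ', φ' ≠ 1 ∧ ¬ dualRel P φ' φ := by
    by_cases h0 : dualRel P ψ₀ φ
    · exact ⟨ψ₁, hψ₁, fun h1 => hnrel (dualRel_trans _ h0 (dualRel_symm _ h1))⟩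
    · exact ⟨ψ₀, hψ₀, h0⟩
  have hne : ζ φ ≠ ζ φ' := fun hh => hn (dualRel_symm _ ((h.inj φ φ' hφ hφ').1 hh))
  have h1 := h.shape φ hφ (ζ φ)
  have h2 := h.shape φ' hφ' (ζ φ)
  rw [if_pos rfl] at h1
  rw [if_neg hne] at h2
  rw [blK_of_mem M _ _ (h.mem φ hφ)] at h1 h2
  have hz : ∀ ξ : P →* ℂˣ, ξ ≠ 1 → cZ P (ζ φ) ξ = 0 := by
    intro ξ hξ
    have : ((cZ P (ζ φ) ξ : ℤ) : ℂ) = 0 := by
      rw [cZ_spec, he, cfP, classInner]
      have h3 := sum_hom_orth (1 : P →* ℂˣ) ξ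
      rw [if_neg (Ne.symm hξ)] at h3
      simp only [MonoidHom.one_apply, Units.val_one] at h3
      simp only [oneIrr]
      rw [h3, mul_zero]
    exact_mod_cast this
  rw [hz φ hφ] at h1
  rw [hz φ' hφ'] at h2
  have hε0 := h.eps_sq
  have : ε = 0 := by linarith
  rw [this] at hε0
  norm_num at hε0

theorem BLShape.a_one (h : BLShape M P ε d ζ a) (hM : IsPModular p M)
    (hc : ∀ a b : P, a * b = b * a) (h1 : oneIrr G ∉ excSet ζ) {y : P} (hy : y ≠ 1) :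
    a (oneIrr G) = 1 := by
  have h2 := h.value_nonexc hc (χ := oneIrr G) ⟨oneIrr_mem hM, h1⟩ hy
  have h3 : (oneIrr G : G → ℂ) y = 1 := rfl
  rw [h3] at h2
  exact_mod_cast h2.symm

/-- a sum of nonzero squares equal to three -/
theorem sum_sq_eq_three {ι : Type*} [Fintype ι] (X : Set ι) [DecidablePred (fun i => i ∈ X)]
    (a : ι → ℤ)
    (ha : ∀ i ∈ X, a i ≠ 0) (hs : (∑ i : ι, if i ∈ X then a i ^ 2 else 0) = 3) :
    (∀ i ∈ X, a i = 1 ∨ a i = -1) ∧ Nat.card X = 3 := by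
  have hnn : ∀ i ∈ (Finset.univ : Finset ι), (0 : ℤ) ≤ (if i ∈ X then a i ^ 2 else 0) := by
    intro i _
    split_ifs
    · positivity
    · exact le_refl _
  have h1 : ∀ i ∈ X, a i = 1 ∨ a i = -1 := by
    intro i hi
    have h2 := Finset.single_le_sum hnn (Finset.mem_univ i)
    rw [if_pos hi, hs] at h2
    have h3 := ha i hi
    have h4 : a i < 2 := by nlinarith
    have h5 : -2 < a i := by nlinarith
    omega
  refine ⟨h1, ?_⟩
  have h2 : (Nat.card X : ℤ) = ∑ i : ι, if i ∈ X then (1 : ℤ) else 0 := by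
    rw [Finset.sum_boole, Nat.card_eq_fintype_card, Fintype.card_subtype]
  have h3 : (∑ i : ι, if i ∈ X then (1 : ℤ) else 0) = ∑ i : ι, if i ∈ X then a i ^ 2 else 0 := by
    apply Finset.sum_congr rfl
    intro i _
    split_ifs with hi
    · rcases h1 i hi with h | h <;> rw [h] <;> norm_num
    · rfl
  rw [h3, hs] at h2
  exact_mod_cast h2

open Classical in
/-- with two exceptional characters and `d = ε` one may swap the labelling -/
theorem BLShape.swap (h : BLShape M P ε ε ζ a) {ψ₀ ψ₁ : P →* ℂˣ} (hψ₀ : ψ₀ ≠ 1)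
    (hψ₁ : ψ₁ ≠ 1) (hnrel : ¬ dualRel P ψ₀ ψ₁) (hr : Nat.card (excSet ζ) = 2) :
    ∃ ζ' : (P →* ℂˣ) → IrrCharacter G, excSet ζ' = excSet ζ ∧ BLShape M P (-ε) 0 ζ' a := by
  have hne01 : ζ ψ₀ ≠ ζ ψ₁ := fun hh => hnrel ((h.inj ψ₀ ψ₁ hψ₀ hψ₁).1 hh)
  have hall : ∀ χ ∈ excSet ζ, χ = ζ ψ₀ ∨ χ = ζ ψ₁ := by
    intro χ hχ
    obtain ⟨y, -, hy⟩ := (Nat.card_eq_two_iff' (⟨ζ ψ₀, h.mem_exc hψ₀⟩ : excSet ζ)).1 hr
    by_cases h0 : χ = ζ ψ₀
    · exact Or.inl h0
    · right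
      have h1 := hy ⟨χ, hχ⟩ (fun hh => h0 (congrArg Subtype.val hh))
      have h2 := hy ⟨ζ ψ₁, h.mem_exc hψ₁⟩ (fun hh => hne01 (congrArg Subtype.val hh).symm)
      exact congrArg Subtype.val (h1.trans h2.symm)
  have hrel : ∀ ψ : P →* ℂˣ, ψ ≠ 1 → ¬ dualRel P ψ₀ ψ → dualRel P ψ₁ ψ := by
    intro ψ hψ hn
    rcases hall _ (h.mem_exc hψ) with h1 | h1
    · exact absurd ((h.inj ψ₀ ψ hψ₀ hψ).1 h1.symm) hn
    · exact (h.inj ψ₁ ψ hψ₁ hψ).1 h1.symm
  let ζ' : (P →* ℂˣ) → IrrCharacter G := fun ψ => if dualRel P ψ₀ ψ then ζ ψ₁ else ζ ψ₀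
  have hζ'0 : ∀ ψ, dualRel P ψ₀ ψ → ζ' ψ = ζ ψ₁ := fun ψ hh => if_pos hh
  have hζ'1 : ∀ ψ, ¬ dualRel P ψ₀ ψ → ζ' ψ = ζ ψ₀ := fun ψ hh => if_neg hh
  have hexc : excSet ζ' = excSet ζ := by
    ext χ
    constructor
    · rintro ⟨φ, hφ, rfl⟩
      by_cases h0 : dualRel P ψ₀ φ
      · rw [hζ'0 φ h0]; exact h.mem_exc hψ₁
      · rw [hζ'1 φ h0]; exact h.mem_exc hψ₀
    · intro hχ
      rcases hall χ hχ with rfl | rfl
      · exact ⟨ψ₁, hψ₁, hζ'1 ψ₁ hnrel⟩
      · exact ⟨ψ₀, hψ₀, hζ'0 ψ₀ (dualRel_refl _ _)⟩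
  refine ⟨ζ', hexc, ?_, ?_, ?_, ?_⟩
  · rcases h.eps with h1 | h1 <;> rw [h1] <;> simp
  · intro ψ hψ
    by_cases h0 : dualRel P ψ₀ ψ
    · rw [hζ'0 ψ h0]; exact h.mem ψ₁ hψ₁
    · rw [hζ'1 ψ h0]; exact h.mem ψ₀ hψ₀
  · intro ψ ψ' hψ hψ'
    by_cases h0 : dualRel P ψ₀ ψ <;> by_cases h1 : dualRel P ψ₀ ψ'
    · rw [hζ'0 ψ h0, hζ'0 ψ' h1]
      exact ⟨fun _ => dualRel_trans _ (dualRel_symm _ h0) h1, fun _ => rfl⟩
    · rw [hζ'0 ψ h0, hζ'1 ψ' h1]
      exact ⟨fun hh => absurd hh.symm hne01, fun hh => absurd (dualRel_trans _ h0 hh) h1⟩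
    · rw [hζ'1 ψ h0, hζ'0 ψ' h1]
      exact ⟨fun hh => absurd hh hne01,
        fun hh => absurd (dualRel_trans _ h1 (dualRel_symm _ hh)) h0⟩
    · rw [hζ'1 ψ h0, hζ'1 ψ' h1]
      exact ⟨fun _ => dualRel_trans _ (dualRel_symm _ (hrel ψ hψ h0)) (hrel ψ' hψ' h1),
        fun _ => rfl⟩
  · intro ψ hψ χ
    rw [h.shape ψ hψ χ, hexc]
    by_cases hY : χ ∈ excSet ζ
    · rw [if_neg (fun hh => hh.2 hY), if_pos hY, if_pos hY]
      by_cases h0 : dualRel P ψ₀ ψ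
      · have e1 : ζ ψ = ζ ψ₀ := ((h.inj ψ₀ ψ hψ₀ hψ).2 h0).symm
        rw [hζ'0 ψ h0, e1]
        rcases hall χ hY with rfl | rfl
        · rw [if_pos rfl, if_neg hne01]; ring
        · rw [if_neg hne01.symm, if_pos rfl]; ring
      · have e1 : ζ ψ = ζ ψ₁ := ((h.inj ψ₁ ψ hψ₁ hψ).2 (hrel ψ hψ h0)).symm
        rw [hζ'1 ψ h0, e1]
        rcases hall χ hY with rfl | rfl
        · rw [if_neg hne01, if_pos rfl]; ring
        · rw [if_pos rfl, if_neg hne01.symm]; ring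
    · have hn1 : χ ≠ ζ ψ := fun hh => hY (hh ▸ h.mem_exc hψ)
      have hn2 : χ ≠ ζ' ψ := by
        intro hh
        apply hY
        rw [← hexc, hh]
        exact ⟨ψ, hψ, rfl⟩
      rw [if_neg hY, if_neg hn1, if_neg hn2]
      simp

open Classical in
/-- The shape for `|N:C| = 3`: `d = 0`, three non-exceptional characters with signs. -/
theorem exists_blShape_three (hM : IsPModular p M) (P : Sylow p G) [IsMulCommutative P]
    [Fintype (P : Subgroup G)]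
    (hfrob : ∀ y : G, y ∈ (P : Subgroup G) → y ≠ 1 →
      Subgroup.centralizer ({y} : Set G) ⊓ Subgroup.normalizer ((P : Subgroup G) : Set G)
        = Subgroup.centralizer ((P : Subgroup G) : Set G))
    (hCN : (Subgroup.centralizer ((P : Subgroup G) : Set G)).relIndex
      (Subgroup.normalizer ((P : Subgroup G) : Set G)) = 3)
    (hm2 : 3 + 1 < Nat.card (P : Subgroup G)) :
    ∃ (ε : ℤ) (ζ : ((P : Subgroup G) →* ℂˣ) → IrrCharacter G) (a : IrrCharacter G → ℤ),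
      BLShape M (P : Subgroup G) ε 0 ζ a ∧
      (∀ χ ∈ principalBlock M G \ excSet ζ, a χ = 1 ∨ a χ = -1) ∧
      Nat.card ↥(principalBlock M G \ excSet ζ) = 3 := by
  have hc : ∀ a b : (P : Subgroup G), a * b = b * a :=
    fun a b => (inferInstance : IsMulCommutative P).is_comm.comm a b
  have hfree := freeNC_of_frob (P : Subgroup G) hfrob
  have hm2' : (Subgroup.centralizer ((P : Subgroup G) : Set G)).relIndex
      (Subgroup.normalizer ((P : Subgroup G) : Set G)) + 1 < Nat.card (P : Subgroup G) := by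
    rw [hCN]; exact hm2
  obtain ⟨ε, d, ζ, a, h⟩ := exists_blShape hM P hfrob hm2'
  obtain ⟨ψ₀, ψ₁, hψ₀, hψ₁, hnrel⟩ := exists_two_orbits (P : Subgroup G) hc hfree hm2'
  have hcardY : Nat.card (excSet ζ) * 3 = Nat.card (P : Subgroup G) - 1 := by
    have := h.card_exc hc hfree
    rwa [hCN] at this
  have hr2 : 2 ≤ Nat.card (excSet ζ) := by omega
  have hnorm := h.norm_eq hψ₀ (3 : ℤ) (by
    rw [blK_gram hM P hfrob hψ₀ hψ₀, hCN, if_pos (dualRel_refl _ _)]; norm_num)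
  obtain ⟨y₀, hy₀⟩ : ∃ y₀ : (P : Subgroup G), y₀ ≠ 1 := by
    by_contra hcon
    push Not at hcon
    have : Nat.card (P : Subgroup G) = 1 := by
      rw [Nat.card_eq_one_iff_unique]
      exact ⟨⟨fun a b => by rw [hcon a, hcon b]⟩, ⟨1⟩⟩
    omega
  have ha0 : ∀ χ ∈ principalBlock M G \ excSet ζ, a χ ≠ 0 := by
    intro χ hχ h0
    have h1 := h.value_nonexc hc hχ hy₀
    rw [h0, Int.cast_zero] at h1
    exact principal_ne_zero hM P (sylow_le_centralizer_singleton P y₀.2) hχ.1 h1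
  have h1X : oneIrr G ∉ excSet ζ := h.one_not_exc hψ₀ hψ₁ hnrel
  have h1X' : oneIrr G ∈ principalBlock M G \ excSet ζ := ⟨oneIrr_mem hM, h1X⟩
  have ha1 : a (oneIrr G) = 1 := h.a_one hM hc h1X hy₀
  have hnn : ∀ χ ∈ (Finset.univ : Finset (IrrCharacter G)),
      (0 : ℤ) ≤ (if χ ∈ principalBlock M G \ excSet ζ then a χ ^ 2 else 0) := by
    intro i _
    split_ifs
    · positivity
    · exact le_refl _
  have hS1 : (1 : ℤ) ≤ ∑ χ : IrrCharacter G,
      if χ ∈ principalBlock M G \ excSet ζ then a χ ^ 2 else 0 := by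
    have h2 := Finset.single_le_sum hnn (Finset.mem_univ (oneIrr G))
    rw [if_pos h1X', ha1] at h2
    simpa using h2
  have hr : (2 : ℤ) ≤ (Nat.card (excSet ζ) : ℤ) := by exact_mod_cast hr2
  set S : ℤ := ∑ χ : IrrCharacter G,
      if χ ∈ principalBlock M G \ excSet ζ then a χ ^ 2 else 0 with hS
  set r : ℤ := (Nat.card (excSet ζ) : ℤ) with hrdef
  have hεsq := h.eps_sq
  by_cases hd0 : d = 0
  · subst hd0
    have hS3 : S = 3 := by nlinarith
    obtain ⟨h1, h2⟩ := sum_sq_eq_three _ a ha0 hS3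
    exact ⟨ε, ζ, a, h, h1, h2⟩
  by_cases hdε : d = ε
  · subst hdε
    have h4 : (r - 1) + S = 4 := by nlinarith
    have hr4 : r = 2 ∨ r = 3 ∨ r = 4 := by omega
    rcases hr4 with hr4 | hr4 | hr4
    · have hS3 : S = 3 := by omega
      obtain ⟨h1, h2⟩ := sum_sq_eq_three _ a ha0 hS3
      have hr' : Nat.card (excSet ζ) = 2 := by rw [hrdef] at hr4; exact_mod_cast hr4
      obtain ⟨ζ', hexc, h'⟩ := h.swap hψ₀ hψ₁ hnrel hr'
      refine ⟨-d, ζ', a, h', ?_, ?_⟩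
      · rw [hexc]; exact h1
      · rw [hexc]; exact h2
    · exfalso
      have hr' : Nat.card (excSet ζ) = 3 := by rw [hrdef] at hr4; exact_mod_cast hr4
      have hP10 : Nat.card (P : Subgroup G) = 10 := by omega
      obtain ⟨n, hn⟩ := (P.2 : IsPGroup p (P : Subgroup G)).exists_card_eq
      rw [hP10] at hn
      have hp := (Fact.out : p.Prime)
      have h2 : p = 2 := by
        have : 2 ∣ p ^ n := by rw [← hn]; norm_num
        exact ((Nat.prime_dvd_prime_iff_eq Nat.prime_two hp).1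
          (Nat.prime_two.dvd_of_dvd_pow this)).symm
      have h5 : p = 5 := by
        have : 5 ∣ p ^ n := by rw [← hn]; norm_num
        exact ((Nat.prime_dvd_prime_iff_eq Nat.prime_five hp).1
          (Nat.prime_five.dvd_of_dvd_pow this)).symm
      omega
    · exfalso
      have hS1' : S = 1 := by omega
      have hX : ∀ χ ∈ principalBlock M G \ excSet ζ, χ = oneIrr G := by
        intro χ hχ
        by_contra hne
        have h5 : (∑ χ' ∈ ({oneIrr G, χ} : Finset (IrrCharacter G)),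
            if χ' ∈ principalBlock M G \ excSet ζ then a χ' ^ 2 else 0) ≤ S :=
          Finset.sum_le_sum_of_subset_of_nonneg (Finset.subset_univ _) (fun i hi _ => hnn i hi)
        rw [Finset.sum_pair (Ne.symm hne), if_pos h1X', if_pos hχ, ha1] at h5
        have h6 : 0 < a χ ^ 2 := by have := ha0 χ hχ; positivity
        omega
      have hreg := h.regular_rel hM P.2 hψ₀ (g := 1) (by
        rw [orderOf_one, Nat.dvd_one]; exact (Fact.out : p.Prime).one_lt.ne')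
      rw [Finset.sum_eq_single (oneIrr G)] at hreg
      · rw [if_pos h1X', ha1] at hreg
        obtain ⟨f, -, hf⟩ := Cfsg.Agent.Lib.Helper83.isIrr_one (ζ ψ₀).2
        have h7 : (oneIrr G : G → ℂ) 1 = 1 := rfl
        have hr' : Nat.card (excSet ζ) = 4 := by rw [hrdef] at hr4; exact_mod_cast hr4
        rw [hf, h7, hr'] at hreg
        have h8 : ((4 : ℤ) * d - d) * (f : ℤ) + 1 * 1 = 0 := by exact_mod_cast hreg
        rcases h.eps with h9 | h9 <;> rw [h9] at h8 <;> omega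
      · intro χ _ hne
        rw [if_neg (fun hh => hne (hX χ hh))]
      · intro hh
        exact absurd (Finset.mem_univ _) hh
  · exfalso
    rcases h.eps with rfl | rfl
    · have : d ≤ -1 ∨ 2 ≤ d := by omega
      rcases this with h5 | h5 <;> nlinarith
    · have : d ≤ -2 ∨ 1 ≤ d := by omega
      rcases this with h5 | h5 <;> nlinarith

end

end Cfsg.Agent.Lib.Helper83
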