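import Mathlib

/-!
# A sign-reversing involution on `u`-stable normal chains of `p`-subgroups
-/

set_option autoImplicit false
set_option linter.unusedSectionVars false

namespace Cfsg.Agent.Lib.Helper83

section ChainInv

variable {G : Type*} [Group G]

/-- (possibly empty) chains of nontrivial `p`-subgroups normalising each other and normalised
by `u`. -/
def IsNChain (p : ℕ) (u : G) (s : Finset (Subgroup G)) : Prop :=
  (∀ Q ∈ s, ∀ R ∈ s, Q ≤ R ∨ R ≤ Q) ∧ (∀ Q ∈ s, Q ≠ ⊥ ∧ IsPGroup p Q) ∧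
  (∀ Q ∈ s, ∀ R ∈ s, R ≤ Subgroup.normalizer (Q : Set G)) ∧
  ∀ Q ∈ s, u ∈ Subgroup.normalizer (Q : Set G)

/-- the family of subgroups whose infimum is toggled -/
def togFam (u : G) (s : Finset (Subgroup G)) : Set (Subgroup G) :=
  {K | u ∈ K ∧ (∀ Q ∈ s, u ∉ Q → Q ≤ K) ∧ ∀ Q ∈ s, Q ≤ Subgroup.normalizer (K : Set G)}

/-- the subgroup which is toggled -/
def togW (u : G) (s : Finset (Subgroup G)) : Subgroup G := sInf (togFam u s)

theorem mem_togW (u : G) (s : Finset (Subgroup G)) : u ∈ togW u s := by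
  rw [togW, Subgroup.mem_sInf]
  intro K hK
  exact hK.1

theorem le_togW (u : G) (s : Finset (Subgroup G)) {Q : Subgroup G} (hQ : Q ∈ s) (hu : u ∉ Q) :
    Q ≤ togW u s := by
  rw [togW]
  apply le_sInf
  intro K hK
  exact hK.2.1 Q hQ hu

theorem togW_le (u : G) (s : Finset (Subgroup G)) {K : Subgroup G} (hK : K ∈ togFam u s) :
    togW u s ≤ K := sInf_le hK

theorem le_normalizer_togW (u : G) (s : Finset (Subgroup G)) {Q : Subgroup G} (hQ : Q ∈ s) :
    Q ≤ Subgroup.normalizer (togW u s : Set G) := by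
  intro q hq
  rw [Subgroup.mem_normalizer_iff]
  intro h
  simp only [togW, Subgroup.mem_sInf]
  constructor
  · intro hh K hK
    exact (Subgroup.mem_normalizer_iff.1 (hK.2.2 Q hQ hq) h).1 (hh K hK)
  · intro hh K hK
    exact (Subgroup.mem_normalizer_iff.1 (hK.2.2 Q hQ hq) h).2 (hh K hK)

/-- in a finite `p`-group a proper subgroup lies in a proper normal subgroup -/
theorem exists_normal_between {p : ℕ} [Fact p.Prime] [Finite G] {R W : Subgroup G}
    (hW : IsPGroup p W) (hRW : R < W) :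
    ∃ M' : Subgroup G, R ≤ M' ∧ M' < W ∧ W ≤ Subgroup.normalizer (M' : Set G) := by
  have hnil : Group.IsNilpotent W := hW.isNilpotent
  have hne : R.subgroupOf W ≠ ⊤ := by
    intro h
    rw [Subgroup.subgroupOf_eq_top] at h
    exact absurd hRW (not_lt_of_ge h)
  obtain h | ⟨A, hA, hRA⟩ := eq_top_or_exists_le_coatom (R.subgroupOf W)
  · exact absurd h hne
  have hAn : A.Normal := Subgroup.NormalizerCondition.normal_of_coatom A
    Group.normalizerCondition_of_isNilpotent hA
  refine ⟨A.map W.subtype, ?_, ?_, ?_⟩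
  · intro r hr
    exact ⟨⟨r, hRW.le hr⟩, hRA (by simpa [Subgroup.mem_subgroupOf] using hr), rfl⟩
  · refine lt_of_le_of_ne (Subgroup.map_subtype_le A) ?_
    intro h
    apply hA.1
    rw [eq_top_iff]
    intro w _
    have hw : (w : G) ∈ A.map W.subtype := by rw [h]; exact w.2
    obtain ⟨a, ha, haw⟩ := hw
    have : a = w := Subtype.ext haw
    rwa [← this]
  · intro w hw
    rw [Subgroup.mem_normalizer_iff]
    intro h
    constructor
    · rintro ⟨a, ha, rfl⟩
      exact ⟨⟨w, hw⟩ * a * ⟨w, hw⟩⁻¹, hAn.conj_mem a ha _, rfl⟩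
    · rintro ⟨a, ha, haw⟩
      refine ⟨⟨w, hw⟩⁻¹ * a * ⟨w, hw⟩, ?_, ?_⟩
      · have := hAn.conj_mem a ha (⟨w, hw⟩⁻¹)
        simpa using this
      · simp only [Subgroup.subtype_apply, Subgroup.coe_mul, InvMemClass.coe_inv]
        have h2 : (a : G) = w * h * w⁻¹ := haw
        rw [h2]; group

/-- a nonempty finite chain has a top element -/
theorem exists_top_of_chain {s : Finset (Subgroup G)} (hs : s.Nonempty)
    (hch : ∀ Q ∈ s, ∀ R ∈ s, Q ≤ R ∨ R ≤ Q) : ∃ T ∈ s, ∀ Q ∈ s, Q ≤ T := by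
  induction hs using Finset.Nonempty.cons_induction with
  | singleton a => exact ⟨a, by simp, by simp⟩
  | cons a t ha ht ih =>
    obtain ⟨T, hT, hTmax⟩ := ih (fun Q hQ R hR => hch Q (by simp [hQ]) R (by simp [hR]))
    rcases hch a (by simp) T (by simp [hT]) with h | h
    · refine ⟨T, by simp [hT], ?_⟩
      intro Q hQ
      rw [Finset.mem_cons] at hQ
      rcases hQ with rfl | hQ
      · exact h
      · exact hTmax Q hQ
    · refine ⟨a, by simp, ?_⟩
      intro Q hQ
      rw [Finset.mem_cons] at hQ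
      rcases hQ with rfl | hQ
      · exact le_rfl
      · exact (hTmax Q hQ).trans h

section Main

variable {p : ℕ} {u : G} {s : Finset (Subgroup G)}

theorem IsNChain.mono {t : Finset (Subgroup G)} (hs : IsNChain p u s) (h : t ⊆ s) :
    IsNChain p u t :=
  ⟨fun Q hQ R hR => hs.1 Q (h hQ) R (h hR), fun Q hQ => hs.2.1 Q (h hQ),
    fun Q hQ R hR => hs.2.2.1 Q (h hQ) R (h hR), fun Q hQ => hs.2.2.2 Q (h hQ)⟩

theorem togW_mem_togFam (u : G) (s : Finset (Subgroup G)) : togW u s ∈ togFam u s :=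
  ⟨mem_togW u s, fun _ hQ hu => le_togW u s hQ hu, fun _ hQ => le_normalizer_togW u s hQ⟩

theorem IsNChain.togW_le_of_mem (hs : IsNChain p u s) {Q : Subgroup G} (hQ : Q ∈ s) (hu : u ∈ Q) :
    togW u s ≤ Q := by
  apply togW_le
  refine ⟨hu, ?_, ?_⟩
  · intro Q' hQ' hu'
    rcases hs.1 Q hQ Q' hQ' with h | h
    · exact absurd (h hu) hu'
    · exact h
  · intro R hR
    exact hs.2.2.1 Q hQ R hR

theorem isPGroup_zpowers_of_orderOf (hu : ∃ k : ℕ, orderOf u = p ^ k) :
    IsPGroup p (Subgroup.zpowers u) := by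
  obtain ⟨k, hk⟩ := hu
  exact IsPGroup.of_card (n := k) (by rw [Nat.card_zpowers, hk])

theorem IsNChain.isPGroup_togW (hs : IsNChain p u s) (hu : ∃ k : ℕ, orderOf u = p ^ k) :
    IsPGroup p (togW u s) := by
  rcases s.eq_empty_or_nonempty with rfl | hne
  · refine (isPGroup_zpowers_of_orderOf hu).to_le (togW_le u ∅ ?_)
    exact ⟨Subgroup.mem_zpowers u, by simp, by simp⟩
  · obtain ⟨T, hT, hTmax⟩ := exists_top_of_chain hne hs.1
    have hUT : Subgroup.zpowers u ≤ Subgroup.normalizer (T : Set G) := by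
      rw [Subgroup.zpowers_le]
      exact hs.2.2.2 T hT
    have hP : IsPGroup p (T ⊔ Subgroup.zpowers u : Subgroup G) :=
      (hs.2.1 T hT).2.to_sup_of_normal_left' (isPGroup_zpowers_of_orderOf hu) hUT
    refine hP.to_le (togW_le u s ?_)
    refine ⟨?_, ?_, ?_⟩
    · exact (le_sup_right : Subgroup.zpowers u ≤ T ⊔ Subgroup.zpowers u) (Subgroup.mem_zpowers u)
    · intro Q hQ _
      exact (hTmax Q hQ).trans le_sup_left
    · intro Q hQ
      exact ((hTmax Q hQ).trans le_sup_left).trans Subgroup.le_normalizer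

theorem togW_ne_bot (hu1 : u ≠ 1) (s : Finset (Subgroup G)) : togW u s ≠ ⊥ := by
  intro h
  have := mem_togW u s
  rw [h, Subgroup.mem_bot] at this
  exact hu1 this

open Classical in
theorem IsNChain.insert_togW (hs : IsNChain p u s) (hu : ∃ k : ℕ, orderOf u = p ^ k)
    (hu1 : u ≠ 1) : IsNChain p u (insert (togW u s) s) := by
  have hcmp : ∀ Q ∈ s, Q ≤ togW u s ∨ togW u s ≤ Q := by
    intro Q hQ
    by_cases h : u ∈ Q
    · exact Or.inr (hs.togW_le_of_mem hQ h)
    · exact Or.inl (le_togW u s hQ h)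
  -- `togW` normalises every member
  have hWn : ∀ Q ∈ s, togW u s ≤ Subgroup.normalizer (Q : Set G) := by
    intro Q hQ
    apply togW_le
    refine ⟨hs.2.2.2 Q hQ, ?_, ?_⟩
    · intro R hR _
      exact hs.2.2.1 Q hQ R hR
    · intro R hR
      exact (hs.2.2.1 Q hQ R hR).trans Subgroup.le_normalizer
  refine ⟨?_, ?_, ?_, ?_⟩
  · intro Q hQ R hR
    rw [Finset.mem_insert] at hQ hR
    rcases hQ with rfl | hQ <;> rcases hR with rfl | hR
    · exact Or.inl le_rfl
    · exact (hcmp R hR).symm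
    · exact hcmp Q hQ
    · exact hs.1 Q hQ R hR
  · intro Q hQ
    rw [Finset.mem_insert] at hQ
    rcases hQ with rfl | hQ
    · exact ⟨togW_ne_bot hu1 s, hs.isPGroup_togW hu⟩
    · exact hs.2.1 Q hQ
  · intro Q hQ R hR
    rw [Finset.mem_insert] at hQ hR
    rcases hQ with rfl | hQ <;> rcases hR with rfl | hR
    · exact Subgroup.le_normalizer
    · exact le_normalizer_togW u s hR
    · exact hWn Q hQ
    · exact hs.2.2.1 Q hQ R hR
  · intro Q hQ
    rw [Finset.mem_insert] at hQ
    rcases hQ with rfl | hQ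
    · exact Subgroup.le_normalizer (mem_togW u s)
    · exact hs.2.2.2 Q hQ

open Classical in
theorem togW_insert (u : G) (s : Finset (Subgroup G)) :
    togW u (insert (togW u s) s) = togW u s := by
  apply le_antisymm
  · apply togW_le
    refine ⟨mem_togW u s, ?_, ?_⟩
    · intro Q hQ hu
      rw [Finset.mem_insert] at hQ
      rcases hQ with rfl | hQ
      · exact absurd (mem_togW u s) hu
      · exact le_togW u s hQ hu
    · intro Q hQ
      rw [Finset.mem_insert] at hQ
      rcases hQ with rfl | hQ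
      · exact Subgroup.le_normalizer
      · exact le_normalizer_togW u s hQ
  · apply togW_le
    have h := togW_mem_togFam u (insert (togW u s) s)
    exact ⟨h.1, fun Q hQ hu => h.2.1 Q (Finset.mem_insert_of_mem hQ) hu,
      fun Q hQ => h.2.2 Q (Finset.mem_insert_of_mem hQ)⟩

open Classical in
theorem IsNChain.togW_erase [Fact p.Prime] [Finite G] (hs : IsNChain p u s)
    (hu : ∃ k : ℕ, orderOf u = p ^ k) (hW : togW u s ∈ s) :
    togW u (s.erase (togW u s)) = togW u s := by
  set W := togW u s with hWdef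
  set W' := togW u (s.erase W) with hW'def
  have hle : W' ≤ W := by
    apply togW_le
    have h := togW_mem_togFam u s
    exact ⟨h.1, fun Q hQ hu => h.2.1 Q (Finset.mem_of_mem_erase hQ) hu,
      fun Q hQ => h.2.2 Q (Finset.mem_of_mem_erase hQ)⟩
  have hsmall : ∀ Q ∈ s, u ∉ Q → Q ≤ W' := by
    intro Q hQ hQu
    apply le_togW u _ _ hQu
    rw [Finset.mem_erase]
    refine ⟨?_, hQ⟩
    rintro rfl
    exact hQu (mem_togW u s)
  apply le_antisymm hle
  by_cases hcase : ∃ Q ∈ s, Q ≠ W ∧ W ≤ Q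
  · obtain ⟨Q, hQ, hQW, hWQ⟩ := hcase
    apply togW_le
    refine ⟨mem_togW u _, hsmall, ?_⟩
    intro R hR
    by_cases hRW : R = W
    · rw [hRW]
      exact hWQ.trans (le_normalizer_togW u _ (Finset.mem_erase.2 ⟨hQW, hQ⟩))
    · exact le_normalizer_togW u _ (Finset.mem_erase.2 ⟨hRW, hR⟩)
  · push Not at hcase
    have htop : ∀ Q ∈ s, Q ≤ W := by
      intro Q hQ
      by_cases hQW : Q = W
      · exact hQW.le
      · rcases hs.1 Q hQ W hW with h | h
        · exact h
        · exact absurd h (hcase Q hQ hQW)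
    by_contra hnot
    have hlt : W' < W := lt_of_le_of_ne hle (fun h => hnot h.ge)
    obtain ⟨M', h1, h2, h3⟩ := exists_normal_between (hs.isPGroup_togW hu) hlt
    have : W ≤ M' := by
      apply togW_le
      refine ⟨h1 (mem_togW u _), fun Q hQ hQu => (hsmall Q hQ hQu).trans h1, ?_⟩
      intro Q hQ
      exact (htop Q hQ).trans h3
    exact absurd h2 (not_lt_of_ge this)

end Main

section Stab

variable {p : ℕ} {u : G} {s : Finset (Subgroup G)}

/-- the stabiliser of a chain -/
def chainN (s : Finset (Subgroup G)) : Subgroup G :=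
  ⨅ Q ∈ s, Subgroup.normalizer ((Q : Subgroup G) : Set G)

theorem mem_chainN {g : G} : g ∈ chainN s ↔ ∀ Q ∈ s, g ∈ Subgroup.normalizer ((Q : Subgroup G) : Set G) := by
  simp [chainN, Subgroup.mem_iInf]

theorem conj_mem_togW {g : G} (hg : g ∈ chainN s) (hgu : g * u = u * g) {h : G}
    (hh : h ∈ togW u s) : g * h * g⁻¹ ∈ togW u s := by
  rw [mem_chainN] at hg
  rw [togW, Subgroup.mem_sInf]
  intro K hK
  have hK' : K.comap (MulAut.conj g).toMonoidHom ∈ togFam u s := by
    refine ⟨?_, ?_, ?_⟩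
    · rw [Subgroup.mem_comap]
      have : (MulAut.conj g).toMonoidHom u = u := by
        simp only [MulEquiv.coe_toMonoidHom, MulAut.conj_apply]
        rw [hgu]; group
      rw [this]
      exact hK.1
    · intro Q hQ hu q hq
      rw [Subgroup.mem_comap]
      simp only [MulEquiv.coe_toMonoidHom, MulAut.conj_apply]
      exact hK.2.1 Q hQ hu ((Subgroup.mem_normalizer_iff.1 (hg Q hQ) q).1 hq)
    · intro Q hQ q hq
      have hq' : g * q * g⁻¹ ∈ Subgroup.normalizer (K : Set G) :=
        hK.2.2 Q hQ ((Subgroup.mem_normalizer_iff.1 (hg Q hQ) q).1 hq)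
      rw [Subgroup.mem_normalizer_iff]
      intro x
      have h1 := Subgroup.mem_normalizer_iff.1 hq' (g * x * g⁻¹)
      have h2 : g * q * g⁻¹ * (g * x * g⁻¹) * (g * q * g⁻¹)⁻¹ = g * (q * x * q⁻¹) * g⁻¹ := by group
      rw [h2] at h1
      simpa only [SetLike.mem_coe, Subgroup.mem_comap, MulEquiv.coe_toMonoidHom,
        MulAut.conj_apply] using h1
  have := togW_le u s hK' hh
  simpa only [Subgroup.mem_comap, MulEquiv.coe_toMonoidHom, MulAut.conj_apply] using this

theorem mem_normalizer_togW {g : G} (hg : g ∈ chainN s) (hgu : g * u = u * g) :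
    g ∈ Subgroup.normalizer (togW u s : Set G) := by
  rw [Subgroup.mem_normalizer_iff]
  intro h
  constructor
  · exact conj_mem_togW hg hgu
  · intro hh
    have hg' : g⁻¹ ∈ chainN s := inv_mem hg
    have hgu' : g⁻¹ * u = u * g⁻¹ := by
      calc g⁻¹ * u = g⁻¹ * (u * g) * g⁻¹ := by group
        _ = g⁻¹ * (g * u) * g⁻¹ := by rw [hgu]
        _ = u * g⁻¹ := by group
    have := conj_mem_togW hg' hgu' hh
    have h2 : g⁻¹ * (g * h * g⁻¹) * g⁻¹⁻¹ = h := by group
    rwa [h2] at this

open Classical in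
theorem chainN_insert_togW (u : G) (s : Finset (Subgroup G)) :
    chainN (insert (togW u s) s) ⊓ Subgroup.centralizer ({u} : Set G)
      = chainN s ⊓ Subgroup.centralizer ({u} : Set G) := by
  ext g
  simp only [Subgroup.mem_inf, mem_chainN, Finset.mem_insert, forall_eq_or_imp]
  constructor
  · rintro ⟨⟨_, h2⟩, h3⟩
    exact ⟨h2, h3⟩
  · rintro ⟨h2, h3⟩
    refine ⟨⟨?_, h2⟩, h3⟩
    apply mem_normalizer_togW (mem_chainN.2 h2)
    exact (Subgroup.mem_centralizer_iff.1 h3 u rfl).symm

open Classical in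
/-- the involution -/
noncomputable def tog (u : G) (s : Finset (Subgroup G)) : Finset (Subgroup G) :=
  if togW u s ∈ s then s.erase (togW u s) else insert (togW u s) s

theorem IsNChain.tog (hs : IsNChain p u s) (hu : ∃ k : ℕ, orderOf u = p ^ k) (hu1 : u ≠ 1) :
    IsNChain p u (tog u s) := by
  classical
  unfold Helper83.tog
  split_ifs with h
  · exact hs.mono (Finset.erase_subset _ _)
  · exact hs.insert_togW hu hu1

theorem IsNChain.tog_tog [Fact p.Prime] [Finite G] (hs : IsNChain p u s)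
    (hu : ∃ k : ℕ, orderOf u = p ^ k) : Helper83.tog u (Helper83.tog u s) = s := by
  classical
  by_cases h : togW u s ∈ s
  · have h1 : Helper83.tog u s = s.erase (togW u s) := by
      unfold Helper83.tog; rw [if_pos h]
    rw [h1]
    unfold Helper83.tog
    rw [hs.togW_erase hu h, if_neg (Finset.notMem_erase _ _), Finset.insert_erase h]
  · have h1 : Helper83.tog u s = insert (togW u s) s := by
      unfold Helper83.tog; rw [if_neg h]
    rw [h1]
    unfold Helper83.tog
    rw [togW_insert, if_pos (Finset.mem_insert_self _ _), Finset.erase_insert h]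

theorem IsNChain.chainN_tog [Fact p.Prime] [Finite G] (hs : IsNChain p u s)
    (hu : ∃ k : ℕ, orderOf u = p ^ k) :
    chainN (Helper83.tog u s) ⊓ Subgroup.centralizer ({u} : Set G)
      = chainN s ⊓ Subgroup.centralizer ({u} : Set G) := by
  classical
  by_cases h : togW u s ∈ s
  · have h1 : Helper83.tog u s = s.erase (togW u s) := by
      unfold Helper83.tog; rw [if_pos h]
    rw [h1]
    have h2 := chainN_insert_togW u (s.erase (togW u s))
    rw [hs.togW_erase hu h, Finset.insert_erase h] at h2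
    exact h2.symm
  · have h1 : Helper83.tog u s = insert (togW u s) s := by
      unfold Helper83.tog; rw [if_neg h]
    rw [h1]
    exact chainN_insert_togW u s

theorem neg_one_pow_card_tog (u : G) (s : Finset (Subgroup G)) :
    ((-1 : ℂ)) ^ (Helper83.tog u s).card = - (-1 : ℂ) ^ s.card := by
  classical
  by_cases h : togW u s ∈ s
  · have h1 : Helper83.tog u s = s.erase (togW u s) := by
      unfold Helper83.tog; rw [if_pos h]
    have h2 : s.card = (s.erase (togW u s)).card + 1 := (Finset.card_erase_add_one h).symm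
    rw [h1, h2, pow_succ]; ring
  · have h1 : Helper83.tog u s = insert (togW u s) s := by
      unfold Helper83.tog; rw [if_neg h]
    rw [h1, Finset.card_insert_of_notMem h, pow_succ]; ring

end Stab

section Sum

variable {p : ℕ} {u : G} {s : Finset (Subgroup G)}

open Classical in
theorem sum_nchain [Fact p.Prime] [Finite G] [Fintype (Subgroup G)]
    (hu : ∃ k : ℕ, orderOf u = p ^ k) (hu1 : u ≠ 1) (F : Subgroup G → ℂ) :
    ∑ s ∈ (Finset.univ : Finset (Finset (Subgroup G))).filter (IsNChain p u),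
      (-1 : ℂ) ^ s.card * F (chainN s ⊓ Subgroup.centralizer ({u} : Set G)) = 0 := by
  apply Finset.sum_involution (fun s _ => tog u s)
  · intro s hs
    rw [Finset.mem_filter] at hs
    rw [neg_one_pow_card_tog, hs.2.chainN_tog hu]; ring
  · intro s _ _ h
    have h1 := neg_one_pow_card_tog u s
    rw [h] at h1
    have h2 : ((-1 : ℂ)) ^ s.card ≠ 0 := pow_ne_zero _ (by norm_num)
    apply h2
    linear_combination (1 / 2 : ℂ) * h1
  · intro s hs
    rw [Finset.mem_filter] at hs ⊢
    exact ⟨Finset.mem_univ _, hs.2.tog hu hu1⟩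
  · intro s hs
    rw [Finset.mem_filter] at hs
    exact hs.2.tog_tog hu

/-- the chains of the statement: nonempty chains of nontrivial `p`-subgroups, all normal in the
largest one. -/
def IsStmtChain (p : ℕ) (s : Finset (Subgroup G)) : Prop :=
  s.Nonempty ∧ (∀ Q ∈ s, ∀ R ∈ s, Q ≤ R ∨ R ≤ Q) ∧ (∀ Q ∈ s, Q ≠ ⊥ ∧ IsPGroup p Q) ∧
    ∃ T ∈ s, ∀ Q ∈ s, Q ≤ T ∧ T ≤ Subgroup.normalizer ((Q : Subgroup G) : Set G)

theorem isStmtChain_and_iff :
    (IsStmtChain p s ∧ u ∈ chainN s) ↔ (s.Nonempty ∧ IsNChain p u s) := by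
  constructor
  · rintro ⟨⟨h1, h2, h3, T, hT, h4⟩, h5⟩
    refine ⟨h1, h2, h3, ?_, mem_chainN.1 h5⟩
    intro Q hQ R hR
    exact (h4 R hR).1.trans (h4 Q hQ).2
  · rintro ⟨h1, h2, h3, h4, h5⟩
    refine ⟨⟨h1, h2, h3, ?_⟩, mem_chainN.2 h5⟩
    obtain ⟨T, hT, hmax⟩ := exists_top_of_chain h1 h2
    exact ⟨T, hT, fun Q hQ => ⟨hmax Q hQ, h4 Q hQ T hT⟩⟩

open Classical in
theorem finsum_chain [Fact p.Prime] [Finite G]
    (hu : ∃ k : ℕ, orderOf u = p ^ k) (hu1 : u ≠ 1) (F : Subgroup G → ℂ) :
    ∑ᶠ s ∈ {s : Finset (Subgroup G) | IsStmtChain p s}, (-1 : ℂ) ^ (s.card - 1) *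
      (if u ∈ chainN s then F (chainN s ⊓ Subgroup.centralizer ({u} : Set G)) else 0)
      = F (Subgroup.centralizer ({u} : Set G)) := by
  have : Fintype (Subgroup G) := Fintype.ofFinite _
  have h0 := sum_nchain hu hu1 F
  have hemp : (∅ : Finset (Subgroup G)) ∈
      (Finset.univ : Finset (Finset (Subgroup G))).filter (IsNChain p u) := by
    rw [Finset.mem_filter]
    exact ⟨Finset.mem_univ _, by simp [IsNChain]⟩
  rw [← Finset.add_sum_erase _ _ hemp] at h0
  have h1 : chainN (∅ : Finset (Subgroup G)) = ⊤ := by simp [chainN]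
  rw [h1, top_inf_eq, Finset.card_empty, pow_zero, one_mul] at h0
  rw [finsum_mem_eq_finite_toFinset_sum _ (Set.toFinite _)]
  have h2 : ∀ s : Finset (Subgroup G), (-1 : ℂ) ^ (s.card - 1) *
      (if u ∈ chainN s then F (chainN s ⊓ Subgroup.centralizer ({u} : Set G)) else 0)
      = if u ∈ chainN s then (-1 : ℂ) ^ (s.card - 1) *
        F (chainN s ⊓ Subgroup.centralizer ({u} : Set G)) else 0 := by
    intro s
    split_ifs <;> simp
  rw [Finset.sum_congr rfl (fun s _ => h2 s), ← Finset.sum_filter]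
  have h3 : (Set.toFinite {s : Finset (Subgroup G) | IsStmtChain p s}).toFinset.filter
      (fun s => u ∈ chainN s)
      = ((Finset.univ : Finset (Finset (Subgroup G))).filter (IsNChain p u)).erase ∅ := by
    ext s
    simp only [Finset.mem_filter, Set.Finite.mem_toFinset, Set.mem_ofPred_eq, Finset.mem_erase,
      Finset.mem_univ, true_and]
    rw [isStmtChain_and_iff, Finset.nonempty_iff_ne_empty]
  rw [h3]
  have h4 : ∑ s ∈ ((Finset.univ : Finset (Finset (Subgroup G))).filter (IsNChain p u)).erase ∅,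
      (-1 : ℂ) ^ (s.card - 1) * F (chainN s ⊓ Subgroup.centralizer ({u} : Set G))
      = - ∑ s ∈ ((Finset.univ : Finset (Finset (Subgroup G))).filter (IsNChain p u)).erase ∅,
      (-1 : ℂ) ^ s.card * F (chainN s ⊓ Subgroup.centralizer ({u} : Set G)) := by
    rw [← Finset.sum_neg_distrib]
    apply Finset.sum_congr rfl
    intro s hs
    have hne : s ≠ ∅ := (Finset.mem_erase.1 hs).1
    have hpos : 0 < s.card := Finset.card_pos.2 (Finset.nonempty_iff_ne_empty.2 hne)
    obtain ⟨n, hn⟩ : ∃ n, s.card = n + 1 := ⟨s.card - 1, by omega⟩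
    rw [hn, Nat.add_sub_cancel, pow_succ]; ring
  rw [h4]
  linear_combination -h0

end Sum

end ChainInv

end Cfsg.Agent.Lib.Helper83
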