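import Cfsg.Agent.Lib.Helper83.ChainSection
import Cfsg.Agent.Lib.Helper83.ChainInv
import Cfsg.Agent.Lib.Helper21.DefectCenter2

/-!
# The Knörr–Robinson alternating sum for `k - l`
-/

set_option autoImplicit false
set_option linter.unusedSectionVars false
open Cfsg
open scoped ComplexConjugate
open Cfsg.Agent.Lib.Helper20 Cfsg.Agent.Lib.Helper81 Cfsg.Agent.Lib.Helper5 Cfsg.Agent.Lib.Helper21

namespace Cfsg.Agent.Lib.Helper83

section Main

variable {G : Type*} [Group G] [Fintype G] {p : ℕ} {M : Ideal AlgInt}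

open Classical in
/-- `∑_{ψ} |ψ(g)|²` over the characters of `N` in blocks inducing `b`, extended by zero. -/
noncomputable def chainPhi (M : Ideal AlgInt) (b : Set (IrrCharacter G)) (N : Subgroup G) (g : G) :
    ℂ :=
  if hg : g ∈ N then bS (indSet M N b) ⟨g, hg⟩ ⟨g, hg⟩ else 0

open Classical in
theorem card_mul_sub_indSet (hM : IsPModular p M) (b : Set (IrrCharacter G)) (N : Subgroup G) :
    (Nat.card N : ℂ) * ((Nat.card (indSet M N b) : ℂ) - (blockRank p (indSet M N b) : ℂ))
      = ∑ g : G, if IsPRegular p g then 0 else chainPhi M b N g := by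
  have : Fintype N := Fintype.ofFinite _
  rw [card_mul_sub_closed hM (blockClosed_indSet hM N b)]
  have h1 : ∀ g : G, (if IsPRegular p g then 0 else chainPhi M b N g)
      = if g ∈ N then (if IsPRegular p g then 0 else chainPhi M b N g) else 0 := by
    intro g
    by_cases hg : g ∈ N
    · rw [if_pos hg]
    · rw [if_neg hg, chainPhi, dif_neg hg]; simp
  rw [Finset.sum_congr rfl (fun g _ => h1 g), ← Finset.sum_filter,
    Finset.sum_subtype (Finset.univ.filter (· ∈ N)) (p := (· ∈ N)) (by simp)]
  apply Finset.sum_congr rfl; intro x _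
  have h2 : IsPRegular p x ↔ IsPRegular p (x : G) := by
    rw [IsPRegular, IsPRegular, Subgroup.orderOf_coe]
  simp only [h2, chainPhi, dif_pos x.2]

open Classical in
theorem chainPhi_section (hM : IsPModular p M) (b : Set (IrrCharacter G)) (N : Subgroup G)
    {u y : G} (hu : ∃ k : ℕ, orderOf u = p ^ k) (hy : IsPRegular p y) (hcomm : Commute u y) :
    chainPhi M b N (u * y) = if u ∈ N then
      chainPhi M b (N ⊓ Subgroup.centralizer ({u} : Set G)) y else 0 := by
  have hyC : y ∈ Subgroup.centralizer ({u} : Set G) := by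
    rw [Subgroup.mem_centralizer_iff]
    intro v hv
    rw [Set.mem_singleton_iff] at hv
    rw [hv]; exact hcomm
  by_cases hg : u * y ∈ N
  · have hpp : IsPPart p (u * y) u := ⟨y, rfl, hcomm, hu, hy⟩
    obtain ⟨n, hn⟩ := isPPart_eq_zpow hM.1 hpp
    have huN : u ∈ N := by rw [← hn]; exact zpow_mem hg n
    have hyN : y ∈ N := by
      have : y = u⁻¹ * (u * y) := by group
      rw [this]; exact mul_mem (inv_mem huN) hg
    have hyK : y ∈ N ⊓ Subgroup.centralizer ({u} : Set G) := ⟨hyN, hyC⟩
    rw [if_pos huN, chainPhi, dif_pos hg, chainPhi, dif_pos hyK]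
    exact bS_indSet_section hM b N hu huN hyN hy hyK
  · rw [chainPhi, dif_neg hg]
    split_ifs with huN
    · rw [chainPhi, dif_neg]
      intro h
      exact hg (mul_mem huN h.1)
    · rfl

theorem finsum_chainPhi [Fact p.Prime] (hM : IsPModular p M) (b : Set (IrrCharacter G))
    (hb : IsPBlock M b) {g : G} (hg : ¬ IsPRegular p g) :
    ∑ᶠ s ∈ {s : Finset (Subgroup G) | IsStmtChain p s},
      (-1 : ℂ) ^ (s.card - 1) * chainPhi M b (chainN s) g = bS b g g := by
  classical
  obtain ⟨u, hpp⟩ := exists_isPPart hM.1 g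
  have hu1 : u ≠ 1 := isPPart_ne_one_of_singular (by simpa [IsPRegular] using hg) hpp
  obtain ⟨y, rfl, hcomm, hu, hy⟩ := hpp
  have hyC : y ∈ Subgroup.centralizer ({u} : Set G) := by
    rw [Subgroup.mem_centralizer_iff]
    intro v hv
    rw [Set.mem_singleton_iff] at hv
    rw [hv]; exact hcomm
  have h1 := finsum_chain (p := p) hu hu1 (fun K => chainPhi M b K y)
  simp only [chainPhi_section hM b _ hu hy hcomm]
  rw [h1, chainPhi, dif_pos hyC]
  exact (bS_block_section hM b hb hu hy hyC).symm

theorem blockClosed_of_isPBlock (hM : IsPModular p M) {b : Set (IrrCharacter G)}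
    (hb : IsPBlock M b) : BlockClosed M b := by
  intro χ hχ ψ hs
  rw [isPBlock_eq_blockOf hM hb hχ]
  exact hs

end Main

/-- The alternating sum formula over normal chains. -/
theorem chain_alt_sum {G : Type*} [Group G] [Finite G] (p : ℕ) [Fact p.Prime] (M : Ideal AlgInt)
    (hM : IsPModular p M) (b : Set (IrrCharacter G)) (hb : IsPBlock M b) :
    (Nat.card G : ℤ) * ((Nat.card b : ℤ) - (blockRank p b : ℤ))
      = ∑ᶠ s ∈ {s : Finset (Subgroup G) | IsStmtChain p s},
        (-1 : ℤ) ^ (s.card - 1) * (Nat.card (chainN s) : ℤ) *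
          ((Nat.card (indSet M (chainN s) b) : ℤ) - (blockRank p (indSet M (chainN s) b) : ℤ)) := by
  classical
  have : Fintype G := Fintype.ofFinite _
  apply Int.cast_injective (α := ℂ)
  have hfin : {s : Finset (Subgroup G) | IsStmtChain p s}.Finite := Set.toFinite _
  rw [finsum_mem_eq_finite_toFinset_sum _ hfin]
  push_cast
  rw [card_mul_sub_closed hM (blockClosed_of_isPBlock hM hb)]
  have h1 : ∀ s : Finset (Subgroup G), (-1 : ℂ) ^ (s.card - 1) * (Nat.card (chainN s) : ℂ) *
      ((Nat.card (indSet M (chainN s) b) : ℂ) - (blockRank p (indSet M (chainN s) b) : ℂ))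
      = ∑ g : G, if IsPRegular p g then 0 else
        (-1 : ℂ) ^ (s.card - 1) * chainPhi M b (chainN s) g := by
    intro s
    rw [mul_assoc, card_mul_sub_indSet hM, Finset.mul_sum]
    apply Finset.sum_congr rfl; intro g _
    split_ifs <;> simp
  rw [Finset.sum_congr rfl (fun s _ => h1 s), Finset.sum_comm]
  apply Finset.sum_congr rfl; intro g _
  split_ifs with hg
  · simp
  · rw [← finsum_chainPhi hM b hb hg, finsum_mem_eq_finite_toFinset_sum _ hfin]

end Cfsg.Agent.Lib.Helper83
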