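import Cfsg.Agent.Lib.Helper83.ChainTrace

/-!
# Second main theorem for unions of blocks inducing a given block
-/

set_option autoImplicit false
set_option linter.unusedSectionVars false
open Cfsg
open scoped ComplexConjugate
open Cfsg.Agent.Lib.Helper20 Cfsg.Agent.Lib.Helper81 Cfsg.Agent.Lib.Helper5 Cfsg.Agent.Lib.Helper21

namespace Cfsg.Agent.Lib.Helper83

section Sec

variable {G : Type*} [Group G] [Fintype G] {p : ℕ} {M : Ideal AlgInt}

/-- the union of the blocks satisfying `P` -/
def unionOf (P : Set (IrrCharacter G) → Prop) : Set (IrrCharacter G) := {ψ | ∃ β, ψ ∈ β ∧ P β}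

theorem isPBlock_eq_of_mem (hM : IsPModular p M) {β β' : Set (IrrCharacter G)}
    (h : IsPBlock M β) (h' : IsPBlock M β') {ψ : IrrCharacter G} (hψ : ψ ∈ β) (hψ' : ψ ∈ β') :
    β = β' := by
  rw [isPBlock_eq_blockOf hM h hψ, isPBlock_eq_blockOf hM h' hψ']

theorem blockClosed_unionOf (hM : IsPModular p M) {P : Set (IrrCharacter G) → Prop}
    (hP : ∀ β, P β → IsPBlock M β) : BlockClosed M (unionOf P) := by
  rintro χ ⟨β, hχ, hβ⟩ ψ hs
  refine ⟨β, ?_, hβ⟩
  rw [isPBlock_eq_blockOf hM (hP β hβ) hχ]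
  exact hs

theorem isPBlock_subset_unionOf_iff (hM : IsPModular p M) {P : Set (IrrCharacter G) → Prop}
    (hP : ∀ β, P β → IsPBlock M β) (β : Set (IrrCharacter G)) :
    (IsPBlock M β ∧ β ⊆ unionOf P) ↔ P β := by
  constructor
  · rintro ⟨hβ, hsub⟩
    obtain ⟨ψ, hψ⟩ := isPBlock_nonempty hM hβ
    obtain ⟨β', hψ', hβ'⟩ := hsub hψ
    rw [isPBlock_eq_of_mem hM hβ (hP β' hβ') hψ hψ']
    exact hβ'
  · intro h
    exact ⟨hP β h, fun ψ hψ => ⟨β, hψ, h⟩⟩

open Classical in
theorem bS_unionOf (hM : IsPModular p M) {P : Set (IrrCharacter G) → Prop}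
    (hP : ∀ β, P β → IsPBlock M β) [Fintype (Set (IrrCharacter G))] (a c : G) :
    bS (unionOf P) a c = ∑ β : Set (IrrCharacter G), if P β then bS β a c else 0 := by
  have : Finite (IrrCharacter G) := finite_irrCharacter
  have : Fintype (IrrCharacter G) := Fintype.ofFinite _
  rw [bS, finsum_mem_irr, sum_closed_eq_sum_blocks hM (blockClosed_unionOf hM hP)]
  apply Finset.sum_congr rfl; intro β _
  simp only [isPBlock_subset_unionOf_iff hM hP]
  split_ifs
  · rw [bS, finsum_mem_irr]
  · rfl

/-- second main theorem for a union of blocks -/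
theorem section_unionOf (hM : IsPModular p M) (x : G) (hx : ∃ k : ℕ, orderOf x = p ^ k)
    {P : Set (IrrCharacter G) → Prop} (hP : ∀ β, P β → IsPBlock M β)
    (C : Subgroup G) (hC : C = Subgroup.centralizer ({x} : Set G)) [Fintype C]
    {y : C} (hy : IsPRegular p y) :
    bS (unionOf P) (x * (y : G)) (x * (y : G))
      = bS (unionOf (fun b' : Set (IrrCharacter C) => ∃ β, IsInducedBlock M C b' β ∧ P β)) y y := by
  classical
  subst hC
  have : Finite (IrrCharacter G) := finite_irrCharacter
  have : Fintype (IrrCharacter G) := Fintype.ofFinite _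
  have : Fintype (Set (IrrCharacter G)) := Fintype.ofFinite _
  have : Finite (IrrCharacter (Subgroup.centralizer ({x} : Set G))) := finite_irrCharacter
  have : Fintype (IrrCharacter (Subgroup.centralizer ({x} : Set G))) := Fintype.ofFinite _
  have : Fintype (Set (IrrCharacter (Subgroup.centralizer ({x} : Set G)))) := Fintype.ofFinite _
  rw [bS_unionOf hM hP, bS_unionOf hM (fun b' ⟨β, h, _⟩ => h.1)]
  have h1 : ∀ β : Set (IrrCharacter G), (if P β then bS β (x * (y : G)) (x * (y : G)) else 0)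
      = ∑ b' : Set (IrrCharacter (Subgroup.centralizer ({x} : Set G))),
        if (IsInducedBlock M (Subgroup.centralizer ({x} : Set G)) b' β ∧ P β) then bS b' y y
        else 0 := by
    intro β
    split_ifs with hβ
    · rw [bS, finsum_mem_irr, block_section_orth hM x hx β (hP β hβ) hy hy]
      apply Finset.sum_congr rfl; intro b' _
      by_cases hind : IsInducedBlock M (Subgroup.centralizer ({x} : Set G)) b' β
      · rw [if_pos hind, if_pos ⟨hind, hβ⟩, bS, finsum_mem_irr]
      · rw [if_neg hind, if_neg (fun h => hind h.1)]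
    · symm
      apply Finset.sum_eq_zero; intro b' _
      rw [if_neg (fun h => hβ h.2)]
  rw [Finset.sum_congr rfl (fun β _ => h1 β), Finset.sum_comm]
  apply Finset.sum_congr rfl; intro b' _
  split_ifs with hex
  · obtain ⟨β, hind, hβ⟩ := hex
    rw [Finset.sum_eq_single β, if_pos ⟨hind, hβ⟩]
    · intro β' _ hne
      rw [if_neg]
      rintro ⟨hind', _⟩
      exact hne (isInducedBlock_unique hM hind' hind)
    · intro h; exact absurd (Finset.mem_univ _) h
  · apply Finset.sum_eq_zero; intro β _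
    rw [if_neg]
    intro h
    exact hex ⟨β, h⟩

theorem inducedBlockDefined_of_eq_centralizer (hM : IsPModular p M) (x : G)
    (hx : ∃ k : ℕ, orderOf x = p ^ k) (C : Subgroup G)
    (hC : C = Subgroup.centralizer ({x} : Set G)) (b : Set (IrrCharacter C)) (hb : IsPBlock M b) :
    InducedBlockDefined M C b := by
  subst hC
  exact inducedBlockDefined_centralizer hM x hx b hb

end Sec

section Transport

variable {K K' : Type*} [Group K] [Group K'] [Fintype K] [Fintype K']

theorem bS_image_irrCongr (e : K' ≃* K) (S : Set (IrrCharacter K)) (a c : K') :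
    bS (irrCongr e '' S) a c = bS S (e a) (e c) := by
  rw [bS, bS, finsum_mem_image (irrCongr e).injective.injOn]
  rfl

end Transport

section Tower

variable {G : Type*} [Group G] [Fintype G] {p : ℕ} {M : Ideal AlgInt}

/-- the characters of `H` lying in blocks which induce `b` -/
def indSet (M : Ideal AlgInt) (H : Subgroup G) (b : Set (IrrCharacter G)) :
    Set (IrrCharacter H) :=
  {ψ | ∃ β : Set (IrrCharacter H), ψ ∈ β ∧ IsInducedBlock M H β b}

theorem blockClosed_indSet (hM : IsPModular p M) (H : Subgroup G) (b : Set (IrrCharacter G)) :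
    BlockClosed M (indSet M H b) := by
  have : Fintype H := Fintype.ofFinite _
  exact blockClosed_unionOf (P := fun β => IsInducedBlock M H β b) hM (fun _ h => h.1)

theorem isInducedBlock_tower_up (hM : IsPModular p M) {K H : Subgroup G} (hKH : K ≤ H)
    {b : Set (IrrCharacter K)} {β : Set (IrrCharacter H)} {B : Set (IrrCharacter G)}
    (hb : IsPBlock M b)
    (hind : IsInducedBlock M (K.subgroupOf H) (downBlock hKH b) β)
    (hβB : IsInducedBlock M H β B) : IsInducedBlock M K b B := by
  refine ⟨hb, hβB.2.1, ?_⟩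
  intro ξ hξ χ hχ g
  obtain ⟨η, hη⟩ := isPBlock_nonempty hM hβB.1
  have h1 := inducedCentralChar_tower hM hKH hind hξ hη g
  have h2 := hβB.2.2 η hη χ hχ g
  have := memLocalIdeal_add hM h1 h2
  rwa [sub_add_sub_cancel] at this

theorem unionOf_tower_eq (hM : IsPModular p M) (b : Set (IrrCharacter G)) {K H : Subgroup G}
    (hKH : K ≤ H)
    (hdef : ∀ b' : Set (IrrCharacter (K.subgroupOf H)), IsPBlock M b' →
      InducedBlockDefined M (K.subgroupOf H) b') :
    unionOf (fun b' : Set (IrrCharacter (K.subgroupOf H)) =>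
        ∃ β, IsInducedBlock M (K.subgroupOf H) b' β ∧ IsInducedBlock M H β b)
      = irrCongr (Subgroup.subgroupOfEquivOfLe hKH) '' indSet M K b := by
  have : Fintype H := Fintype.ofFinite _
  have : Fintype K := Fintype.ofFinite _
  have : Fintype (K.subgroupOf H) := Fintype.ofFinite _
  ext θ'
  constructor
  · rintro ⟨b', hθ', β, hind, hβ⟩
    refine ⟨(irrCongr (Subgroup.subgroupOfEquivOfLe hKH)).symm θ', ?_, by simp⟩
    set θ := (irrCongr (Subgroup.subgroupOfEquivOfLe hKH)).symm θ' with hθ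
    have hbl : IsPBlock M (blockOf M (θ : K → ℂ)) := ⟨θ, rfl⟩
    refine ⟨blockOf M (θ : K → ℂ), mem_blockOf_self hM θ, ?_⟩
    have hmem : θ' ∈ downBlock hKH (blockOf M (θ : K → ℂ)) :=
      ⟨θ, mem_blockOf_self hM θ, by simp [hθ]⟩
    have heq : downBlock hKH (blockOf M (θ : K → ℂ)) = b' :=
      isPBlock_eq_of_mem hM (isPBlock_downBlock hKH hbl) hind.1 hmem hθ'
    rw [← heq] at hind
    exact isInducedBlock_tower_up hM hKH hbl hind hβ
  · rintro ⟨θ, ⟨b'', hθ, hind⟩, rfl⟩
    obtain ⟨β, hβ⟩ := hdef (downBlock hKH b'') (isPBlock_downBlock hKH hind.1)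
    exact ⟨downBlock hKH b'', ⟨θ, hθ, rfl⟩, β, hβ, isInducedBlock_tower hM hKH hβ hind⟩

/-- The second main theorem inside a subgroup `H`, for the blocks of `H` inducing `b`. -/
theorem bS_indSet_section (hM : IsPModular p M) (b : Set (IrrCharacter G)) (H : Subgroup G)
    {u y : G} (hu : ∃ k : ℕ, orderOf u = p ^ k) (huH : u ∈ H) (hyH : y ∈ H)
    (hy : IsPRegular p y)
    (hyK : y ∈ H ⊓ Subgroup.centralizer ({u} : Set G)) :
    bS (indSet M H b) ⟨u * y, mul_mem huH hyH⟩ ⟨u * y, mul_mem huH hyH⟩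
      = bS (indSet M (H ⊓ Subgroup.centralizer ({u} : Set G)) b) ⟨y, hyK⟩ ⟨y, hyK⟩ := by
  classical
  have : Fintype H := Fintype.ofFinite _
  set K : Subgroup G := H ⊓ Subgroup.centralizer ({u} : Set G) with hK
  have hKH : K ≤ H := inf_le_left
  have : Fintype K := Fintype.ofFinite _
  have : Fintype (K.subgroupOf H) := Fintype.ofFinite _
  have hx : ∃ k : ℕ, orderOf (⟨u, huH⟩ : H) = p ^ k := by
    rw [Subgroup.orderOf_mk]; exact hu
  have hC : K.subgroupOf H = Subgroup.centralizer ({(⟨u, huH⟩ : H)} : Set H) := by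
    ext h
    rw [Subgroup.mem_subgroupOf, hK, Subgroup.mem_inf, Subgroup.mem_centralizer_iff,
      Subgroup.mem_centralizer_iff]
    simp only [Set.mem_singleton_iff, forall_eq, SetLike.coe_mem, true_and]
    constructor
    · intro h1; exact Subtype.ext h1
    · intro h1; exact congrArg Subtype.val h1
  have hyK' : (⟨y, hyH⟩ : H) ∈ K.subgroupOf H := Subgroup.mem_subgroupOf.2 hyK
  have hy' : IsPRegular p (⟨⟨y, hyH⟩, hyK'⟩ : K.subgroupOf H) := by
    have h1 : orderOf (⟨⟨y, hyH⟩, hyK'⟩ : K.subgroupOf H) = orderOf y := by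
      rw [Subgroup.orderOf_mk, Subgroup.orderOf_mk]
    rw [IsPRegular, h1]; exact hy
  have key := section_unionOf hM (⟨u, huH⟩ : H) hx (P := fun β => IsInducedBlock M H β b)
    (fun β h => h.1) (K.subgroupOf H) hC (y := ⟨⟨y, hyH⟩, hyK'⟩) hy'
  rw [unionOf_tower_eq hM b hKH
    (fun b' hb' => inducedBlockDefined_of_eq_centralizer hM _ hx _ hC b' hb'),
    bS_image_irrCongr] at key
  exact key

/-- The second main theorem for the block `b` itself. -/
theorem bS_block_section (hM : IsPModular p M) (b : Set (IrrCharacter G)) (hb : IsPBlock M b)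
    {u y : G} (hu : ∃ k : ℕ, orderOf u = p ^ k)
    (hy : IsPRegular p y) (hyK : y ∈ Subgroup.centralizer ({u} : Set G)) :
    bS b (u * y) (u * y)
      = bS (indSet M (Subgroup.centralizer ({u} : Set G)) b) ⟨y, hyK⟩ ⟨y, hyK⟩ := by
  classical
  have : Fintype (Subgroup.centralizer ({u} : Set G)) := Fintype.ofFinite _
  have hy' : IsPRegular p (⟨y, hyK⟩ : Subgroup.centralizer ({u} : Set G)) := by
    rw [IsPRegular, Subgroup.orderOf_mk]; exact hy
  have key := section_unionOf hM u hu (P := fun β => β = b)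
    (fun β h => h ▸ hb) (Subgroup.centralizer ({u} : Set G)) rfl (y := ⟨y, hyK⟩) hy'
  have h1 : unionOf (fun β : Set (IrrCharacter G) => β = b) = b := by
    ext ψ
    constructor
    · rintro ⟨β, hψ, rfl⟩; exact hψ
    · intro hψ; exact ⟨b, hψ, rfl⟩
  have h2 : unionOf (fun b' : Set (IrrCharacter (Subgroup.centralizer ({u} : Set G))) =>
      ∃ β, IsInducedBlock M (Subgroup.centralizer ({u} : Set G)) b' β ∧ β = b)
      = indSet M (Subgroup.centralizer ({u} : Set G)) b := by
    ext ψ
    constructor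
    · rintro ⟨b', hψ, β, hind, rfl⟩; exact ⟨b', hψ, hind⟩
    · rintro ⟨b', hψ, hind⟩; exact ⟨b', hψ, b, hind, rfl⟩
  rw [h1, h2] at key
  exact key

end Tower

end Cfsg.Agent.Lib.Helper83
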