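import Cfsg.Agent.Lib.Helper81.PrincipalSection
import Cfsg.Agent.Lib.Helper81.BlockRank
import Cfsg.Agent.Lib.Helper21.Tower
import Cfsg.Agent.Lib.Helper21.StabDefect

/-!
# `|G| (k(S) - l(S))` for a union of blocks `S` as a sum over `p`-singular elements
-/

set_option autoImplicit false
set_option linter.unusedSectionVars false
open Cfsg
open scoped ComplexConjugate
open Cfsg.Agent.Lib.Helper20 Cfsg.Agent.Lib.Helper81 Cfsg.Agent.Lib.Helper5 Cfsg.Agent.Lib.Helper21

namespace Cfsg.Agent.Lib.Helper83

section Trace

variable {G : Type*} [Group G] [Fintype G] {p : ℕ} {M : Ideal AlgInt}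

/-- unions of blocks -/
def BlockClosed (M : Ideal AlgInt) (S : Set (IrrCharacter G)) : Prop :=
  ∀ χ ∈ S, ∀ ψ : IrrCharacter G, SameBlock M (χ : G → ℂ) (ψ : G → ℂ) → ψ ∈ S

open Classical in
theorem sum_closed_eq_sum_blocks (hM : IsPModular p M) {S : Set (IrrCharacter G)}
    (hS : BlockClosed M S) [Fintype (IrrCharacter G)] [Fintype (Set (IrrCharacter G))]
    (F : IrrCharacter G → ℂ) :
    ∑ χ : IrrCharacter G, (if χ ∈ S then F χ else 0)
      = ∑ b : Set (IrrCharacter G), if (IsPBlock M b ∧ b ⊆ S) then
          ∑ χ : IrrCharacter G, (if χ ∈ b then F χ else 0) else 0 := by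
  rw [sum_irr_eq_sum_blocks hM]
  apply Finset.sum_congr rfl; intro b _
  by_cases hb : IsPBlock M b
  · rw [if_pos hb]
    by_cases hbS : b ⊆ S
    · rw [if_pos ⟨hb, hbS⟩]
      apply Finset.sum_congr rfl; intro χ _
      split_ifs with h1 h2
      · rfl
      · exact absurd (hbS h1) h2
      · rfl
    · rw [if_neg (fun h => hbS h.2)]
      apply Finset.sum_eq_zero; intro χ _
      split_ifs with h1 h2
      · exfalso
        apply hbS
        intro ψ hψ
        exact hS χ h2 ψ (isPBlock_sameBlock hM hb h1 hψ)
      · rfl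
      · rfl
  · rw [if_neg hb, if_neg (fun h => hb h.1)]

theorem bS_closed_regular_singular (hM : IsPModular p M) {S : Set (IrrCharacter G)}
    (hS : BlockClosed M S) {x y : G} (hx : ¬ p ∣ orderOf x) (hy : p ∣ orderOf y) :
    bS S x y = 0 ∧ bS S y x = 0 := by
  classical
  have : Finite (IrrCharacter G) := finite_irrCharacter
  have : Fintype (IrrCharacter G) := Fintype.ofFinite _
  have : Fintype (Set (IrrCharacter G)) := Fintype.ofFinite _
  constructor
  · rw [bS, finsum_mem_irr, sum_closed_eq_sum_blocks hM hS]
    apply Finset.sum_eq_zero; intro b _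
    split_ifs with hb
    · rw [← finsum_mem_irr]
      exact (bS_regular_singular hM b hb.1 hx hy).1
    · rfl
  · rw [bS, finsum_mem_irr, sum_closed_eq_sum_blocks hM hS]
    apply Finset.sum_eq_zero; intro b _
    split_ifs with hb
    · rw [← finsum_mem_irr]
      exact (bS_regular_singular hM b hb.1 hx hy).2
    · rfl

theorem blockPart_pRegularPart_closed (hM : IsPModular p M) {S : Set (IrrCharacter G)}
    (hS : BlockClosed M S) (θ : G → ℂ) :
    blockPart S (pRegularPart p θ) = pRegularPart p (blockPart S θ) := by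
  classical
  rw [pRegularPart_eq, pRegularPart_eq]
  apply blockPart_trunc
  intro x y hx hy
  exact bS_closed_regular_singular hM hS hx (by simpa [IsPRegular] using hy)

/-- `l(S)` is the trace of the projection `θ ↦ (θ_S)°`. -/
theorem card_mul_blockRank_closed (hM : IsPModular p M) {S : Set (IrrCharacter G)}
    (hS : BlockClosed M S) :
    (Nat.card G : ℂ) * (blockRank p S : ℂ)
      = ∑ x : G, ∑ᶠ χ ∈ S, pRegularPart p (χ : G → ℂ) x * (χ : G → ℂ) x⁻¹ := by
  classical
  have : Finite (IrrCharacter G) := finite_irrCharacter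
  have : Fintype (IrrCharacter G) := Fintype.ofFinite _
  have hG : (Nat.card G : ℂ) ≠ 0 := card_ne_zero_complex
  set W : Submodule ℂ (G → ℂ) :=
    Submodule.span ℂ ((fun χ : IrrCharacter G => pRegularPart p (χ : G → ℂ)) '' S) with hW
  set f : (G → ℂ) →ₗ[ℂ] (G → ℂ) := Matrix.toLin' (regBlockMatrix p S) with hf
  have hproj : LinearMap.IsProj W f := by
    constructor
    · intro θ
      rw [hf, regBlockMatrix_toLin', blockPart_eq_sum, pRegularPart_sum]
      apply Submodule.sum_mem
      intro χ _
      rw [pRegularPart_smul]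
      split_ifs with hχ
      · exact Submodule.smul_mem _ _ (Submodule.subset_span ⟨χ, hχ, rfl⟩)
      · simp
    · intro v hv
      induction hv using Submodule.span_induction with
      | mem v hv =>
        obtain ⟨χ, hχ, rfl⟩ := hv
        rw [hf, regBlockMatrix_toLin', blockPart_pRegularPart_closed hM hS, blockPart_irr,
          if_pos hχ, pRegularPart_idem]
      | zero => simp
      | add a b _ _ ha hb => rw [map_add, ha, hb]
      | smul c a _ ha => rw [map_smul, ha]
  have htr := hproj.trace
  rw [hf, Matrix.trace_toLin'_eq] at htr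
  have : (blockRank p S : ℂ) = Matrix.trace (regBlockMatrix p S) := by
    rw [htr]; rfl
  rw [this, Matrix.trace, Finset.mul_sum]
  apply Finset.sum_congr rfl; intro x _
  simp only [Matrix.diag_apply, regBlockMatrix, bS]
  split_ifs with hx
  · rw [← mul_assoc, mul_inv_cancel₀ hG, one_mul]
    apply finsum_congr; intro χ
    apply finsum_congr; intro _
    rw [isCharacter_inv (isCharacter_of_isIrrCharacter χ.2), pRegularPart_eq]
    simp only [if_pos hx]
  · rw [mul_zero]
    symm
    apply finsum_mem_eq_zero_of_forall_eq_zero; intro χ _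
    rw [pRegularPart_eq]
    simp only [if_neg hx, zero_mul]

theorem card_mul_card_eq (S : Set (IrrCharacter G)) :
    (Nat.card G : ℂ) * (Nat.card S : ℂ) = ∑ x : G, bS S x x := by
  classical
  have : Finite (IrrCharacter G) := finite_irrCharacter
  have : Fintype (IrrCharacter G) := Fintype.ofFinite _
  have hG : (Nat.card G : ℂ) ≠ 0 := card_ne_zero_complex
  simp only [bS, finsum_mem_irr]
  rw [Finset.sum_comm]
  have : ∀ χ : IrrCharacter G, ∑ g : G,
      (if χ ∈ S then (χ : G → ℂ) g * conj ((χ : G → ℂ) g) else 0)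
        = (Nat.card G : ℂ) * if χ ∈ S then 1 else 0 := by
    intro χ
    split_ifs with hχ
    · have := classInner_irr_self χ.2
      rw [classInner] at this
      rw [mul_one]
      field_simp at this
      exact this
    · simp
  rw [Finset.sum_congr rfl (fun χ _ => this χ), ← Finset.mul_sum, Finset.sum_boole]
  congr 2
  rw [Nat.card_eq_fintype_card, Fintype.card_subtype]

open Classical in
/-- `|G| (k(S) - l(S))` is the sum of `∑_{χ ∈ S} |χ(g)|²` over the `p`-singular `g`. -/
theorem card_mul_sub_closed (hM : IsPModular p M) {S : Set (IrrCharacter G)}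
    (hS : BlockClosed M S) :
    (Nat.card G : ℂ) * ((Nat.card S : ℂ) - (blockRank p S : ℂ))
      = ∑ x : G, if IsPRegular p x then 0 else bS S x x := by
  rw [mul_sub, card_mul_card_eq, card_mul_blockRank_closed hM hS, ← Finset.sum_sub_distrib]
  apply Finset.sum_congr rfl; intro x _
  split_ifs with hx
  · rw [sub_eq_zero, bS]
    apply finsum_congr; intro χ
    apply finsum_congr; intro _
    rw [isCharacter_inv (isCharacter_of_isIrrCharacter χ.2), pRegularPart_eq]
    simp only [if_pos hx]
  · rw [finsum_mem_eq_zero_of_forall_eq_zero, sub_zero]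
    intro χ _
    rw [pRegularPart_eq]
    simp only [if_neg hx, zero_mul]

end Trace

end Cfsg.Agent.Lib.Helper83
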