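import Cfsg.Agent.Lib.Helper83.RealOrbits

set_option autoImplicit false

namespace Cfsg.Agent.Lib.Helper83

open scoped ComplexConjugate

variable {G : Type*} [Group G] (K : Subgroup G) [hK : K.Normal]

/-- Brauer's permutation lemma for the conjugation action of an element `g` on a normal subgroup:
the number of `g`-invariant irreducible characters equals the number of `g`-invariant classes. -/
theorem card_fixed_irr_eq_card_fixed_classes [Finite K] (g : G) :
    Nat.card {θ : IrrCharacter K // ∀ k : K,
      (θ : K → ℂ) ⟨g * k * g⁻¹, hK.conj_mem k k.2 g⟩ = (θ : K → ℂ) k} =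
    Nat.card {C : ConjClasses K // ∀ k : K, ConjClasses.mk k = C →
      ConjClasses.mk (⟨g * k * g⁻¹, hK.conj_mem k k.2 g⟩ : K) = C} := by
  classical
  let _ := irrConjAction K
  let _ := classConjAction K
  have smul_irr : ∀ (g : G) (θ : IrrCharacter K) (k : K),
      ((g • θ : IrrCharacter K) : K → ℂ) k = (θ : K → ℂ) (MulAut.conjNormal g⁻¹ k) :=
    fun _ _ _ => rfl
  have smul_cls : ∀ (g : G) (x : K),
      g • (ConjClasses.mk x : ConjClasses K) = ConjClasses.mk (MulAut.conjNormal g x) :=
    fun _ _ => rfl
  have hcn : ∀ (g : G) (k : K), MulAut.conjNormal g k = ⟨g * k * g⁻¹, hK.conj_mem k k.2 g⟩ := by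
    intro g k
    apply Subtype.ext
    simp
  have h := brauer_perm_pair (G := K) (fun θ => g • θ) (MulAction.toPerm g)
    (by
      intro θ k k' hk
      have hk' : ConjClasses.mk k' = ConjClasses.mk (MulAut.conjNormal g k) := hk
      have hconj := ConjClasses.mk_eq_mk_iff_isConj.mp hk'
      have h2 := isChar_isConj (IsIrr.isChar (g • θ).2) hconj
      show ((g • θ : IrrCharacter K) : K → ℂ) k' = _
      rw [h2, smul_irr, ← MulAut.mul_apply, ← map_mul, inv_mul_cancel, map_one, MulAut.one_apply])
  have e₁ : Nat.card {θ : IrrCharacter K // ∀ k : K,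
      (θ : K → ℂ) ⟨g * k * g⁻¹, hK.conj_mem k k.2 g⟩ = (θ : K → ℂ) k} =
      Nat.card {θ : IrrCharacter K // g • θ = θ} := by
    apply Nat.card_congr
    apply Equiv.subtypeEquivRight
    intro θ
    constructor
    · intro h
      apply Subtype.ext
      funext k
      rw [smul_irr, ← h (MulAut.conjNormal g⁻¹ k), ← hcn, ← MulAut.mul_apply, ← map_mul,
        mul_inv_cancel, map_one, MulAut.one_apply]
    · intro h k
      have h1 := congrFun (congrArg Subtype.val h) (MulAut.conjNormal g k)
      rw [smul_irr, ← MulAut.mul_apply, ← map_mul, inv_mul_cancel, map_one, MulAut.one_apply] at h1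
      rw [← hcn, ← h1]
  have e₂ : Nat.card {C : ConjClasses K // ∀ k : K, ConjClasses.mk k = C →
      ConjClasses.mk (⟨g * k * g⁻¹, hK.conj_mem k k.2 g⟩ : K) = C} =
      Nat.card {C : ConjClasses K // MulAction.toPerm g C = C} := by
    apply Nat.card_congr
    apply Equiv.subtypeEquivRight
    intro C
    obtain ⟨x, rfl⟩ := ConjClasses.mk_surjective C
    constructor
    · intro h
      show g • (ConjClasses.mk x : ConjClasses K) = _
      rw [smul_cls, hcn]
      exact h x rfl
    · intro h k hk
      have h' : g • (ConjClasses.mk x : ConjClasses K) = ConjClasses.mk x := h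
      rw [← hcn, ← smul_cls, hk, h']
  rw [e₁, e₂]
  exact h

end Cfsg.Agent.Lib.Helper83
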