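import Cfsg.Agent.Lib.Helper83.KleinCount
import Cfsg.Agent.Lib.Helper83.BL3Elem

/-!
# The principal 2-block of a group with Klein four Sylow 2-subgroups: Brauer's order formula
-/

set_option autoImplicit false
set_option linter.unusedSectionVars false
open Cfsg
open scoped ComplexConjugate

namespace Cfsg.Agent.Lib.Helper83

open Cfsg.Agent.Lib.Helper20 Cfsg.Agent.Lib.Helper46 Cfsg.Agent.Lib.Helper81
  Cfsg.Agent.Lib.Helper51 Cfsg.Agent.Lib.Helper78

section setting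

variable {G : Type*} [Group G] [Finite G]

/-- The hypotheses of the order formula give the Klein setting. -/
theorem exists_kleinSetting (g₀ : ℕ) (hg₀ : Odd g₀) (hG : Nat.card G = 4 * g₀)
    (hnc : ¬ ∃ N : Subgroup G, N.Normal ∧ Nat.card N = g₀) (P : Sylow 2 G) (J : G)
    (hJ : J ∈ (P : Subgroup G)) (hJ2 : orderOf J = 2) :
    ∃ a₁ a₂ : G, KleinSetting P J a₁ a₂ := by
  have : Fact (Nat.Prime 2) := ⟨Nat.prime_two⟩
  have hg0 : g₀ ≠ 0 := by rintro rfl; simp at hg₀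
  have hcard : Nat.card P = 4 := by
    rw [P.card_eq_multiplicity, hG, Nat.factorization_mul (by norm_num) hg0]
    have h1 : (4 : ℕ).factorization 2 = 2 := by
      have : (4 : ℕ) = 2 ^ 2 := by norm_num
      rw [this, Nat.Prime.factorization_pow Nat.prime_two]; simp
    have h2 : g₀.factorization 2 = 0 :=
      Nat.factorization_eq_zero_of_not_dvd (by rw [← even_iff_two_dvd, Nat.not_even_iff_odd]; exact hg₀)
    simp [h1, h2]
  have hcompl : ∀ K : Subgroup G, K.Normal → K.IsComplement' (P : Subgroup G) → False := by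
    intro K hK hc
    apply hnc
    refine ⟨K, hK, ?_⟩
    have h1 := hc.card_mul_card
    have h2 : Nat.card (P : Subgroup G) = 4 := hcard
    rw [h2, hG] at h1
    omega
  have hexp : ∀ x : P, x * x = 1 := by
    intro x
    by_contra hx
    have hord : orderOf x = 4 := by
      have h1 : orderOf x ∣ 2 ^ 2 := by
        have := orderOf_dvd_natCard x
        change orderOf x ∣ Nat.card (P : Subgroup G) at this
        rw [hcard] at this
        exact this
      obtain ⟨k, hk, hk2⟩ := (Nat.dvd_prime_pow Nat.prime_two).1 h1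
      have h2 : ¬ orderOf x ∣ 2 := by
        intro hd
        apply hx
        rw [← pow_two]
        exact orderOf_dvd_iff_pow_eq_one.1 hd
      interval_cases k
      · rw [hk2] at h2; norm_num at h2
      · rw [hk2] at h2; norm_num at h2
      · rw [hk2]; norm_num
    have hcyc : IsCyclic P := isCyclic_of_orderOf_eq_card x (by rw [hord, hcard])
    have hmin : (Nat.card G).minFac = 2 := by
      rw [Nat.minFac_eq_two_iff, hG]
      exact Dvd.dvd.mul_right (by norm_num) _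
    exact hcompl _ inferInstance (IsCyclic.isComplement' hmin hcyc)
  have hNC : ¬ Subgroup.normalizer ((P : Subgroup G) : Set G)
      ≤ Subgroup.centralizer ((P : Subgroup G) : Set G) := by
    intro hle
    exact hcompl _ inferInstance (MonoidHom.ker_transferSylow_isComplement' P hle)
  obtain ⟨g, hgN, hgC⟩ := SetLike.not_le_iff_exists.1 hNC
  have hJ1 : J ≠ 1 := by
    rintro rfl; rw [orderOf_one] at hJ2; omega
  have hK : IsKleinFour P := isKleinFour_of_card_of_exp hcard hexp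
  have hfree : ∀ t ∈ (P : Subgroup G), t ≠ 1 → g * t * g⁻¹ ≠ t := by
    intro t ht ht1 he
    apply hgC
    rw [Subgroup.mem_centralizer_iff]
    intro a ha
    have hc : Commute g t := by
      show g * t = t * g
      calc g * t = (g * t * g⁻¹) * g := by group
        _ = t * g := by rw [he]
    exact (commute_of_normalizer_klein P hcard hexp ht ht1 hgN hc ha).eq.symm
  have hconj : ∀ x ∈ (P : Subgroup G), g * x * g⁻¹ ∈ (P : Subgroup G) := fun x hx =>
    (Subgroup.mem_normalizer_iff.1 hgN x).1 hx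
  have hsq : ∀ x ∈ (P : Subgroup G), x * x = 1 := fun x hx => congrArg Subtype.val (hexp ⟨x, hx⟩)
  have hcomm : ∀ x ∈ (P : Subgroup G), ∀ y ∈ (P : Subgroup G), x * y = y * x := by
    intro x hx y hy
    exact congrArg Subtype.val
      ((IsKleinFour.isMulCommutative (G := P)).is_comm.comm ⟨x, hx⟩ ⟨y, hy⟩)
  set z₁ := g * J * g⁻¹ with hz₁
  have hz₁P : z₁ ∈ (P : Subgroup G) := hconj J hJ
  have hz₁1 : z₁ ≠ 1 := conj_ne_one hJ1 g
  have hz₁J : z₁ ≠ J := hfree J hJ hJ1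
  refine ⟨g, g * g, hcard, hexp, hJ, hJ1, hz₁P, hz₁J, ?_⟩
  have e1 : g * g * J * (g * g)⁻¹ = g * z₁ * g⁻¹ := by rw [hz₁]; group
  rw [e1]
  have hw : g * z₁ * g⁻¹ ∈ (P : Subgroup G) := hconj z₁ hz₁P
  have hwJ : g * z₁ * g⁻¹ ≠ J := by
    intro he
    have hJz : J * z₁ ∈ (P : Subgroup G) := Subgroup.mul_mem _ hJ hz₁P
    have hJz1 : J * z₁ ≠ 1 := by
      intro h1
      apply hz₁J
      calc z₁ = (J * J) * z₁ := by rw [hsq J hJ, one_mul]
        _ = J * (J * z₁) := by rw [mul_assoc]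
        _ = J := by rw [h1, mul_one]
    apply hfree _ hJz hJz1
    calc g * (J * z₁) * g⁻¹ = (g * J * g⁻¹) * (g * z₁ * g⁻¹) := by group
      _ = z₁ * J := by rw [he]
      _ = J * z₁ := hcomm _ hz₁P _ hJ
  have := IsKleinFour.eq_mul_of_ne_all (G := P) (x := ⟨J, hJ⟩) (y := ⟨z₁, hz₁P⟩)
    (z := ⟨g * z₁ * g⁻¹, hw⟩) (fun hh => hJ1 (congrArg Subtype.val hh))
    (fun hh => hz₁1 (congrArg Subtype.val hh))
    (fun hh => hz₁J (congrArg Subtype.val hh).symm)
    (fun hh => conj_ne_one hz₁1 g (congrArg Subtype.val hh))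
    (fun hh => hwJ (congrArg Subtype.val hh))
    (fun hh => hfree z₁ hz₁P hz₁1 (congrArg Subtype.val hh))
  exact congrArg Subtype.val this

end setting

section block

variable {G : Type*} [Group G] [Fintype G] [Fintype (IrrCharacter G)] {M : Ideal AlgInt}
  {P : Sylow 2 G} {J a₁ a₂ : G}

/-- principal block characters are constant on the 2-singular elements -/
theorem KleinSetting.value_singular (h : KleinSetting P J a₁ a₂) (hM : IsPModular 2 M)
    {χ : IrrCharacter G} (hχ : χ ∈ principalBlock M G) {w : G} (hw : 2 ∣ orderOf w) :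
    (χ : G → ℂ) w = (χ : G → ℂ) J := by
  have hK : IsKleinFour P := isKleinFour_of_card_of_exp h.card h.exp
  have : IsMulCommutative P := IsKleinFour.isMulCommutative
  obtain ⟨c, y, hy, hy1, hpart⟩ := exists_conj_pPart_of_singular P hw
  obtain ⟨a, ha⟩ := h.isConj hy hy1
  rw [← irr_conj_eq χ w c, ← irr_conj_eq χ J a, ha]
  obtain ⟨v, hv, hcomm, hord, hreg⟩ := hpart
  rw [← hv]
  exact Cfsg.Agent.S0942.result 2 M hM y hord v
    (mem_centralizerPPrimeCore_of_regular P hy (h.frob y hy hy1) hcomm hreg) χ hχ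

theorem KleinSetting.orderOf_J (h : KleinSetting P J a₁ a₂) : orderOf J = 2 :=
  orderOf_eq_prime (p := 2) (by rw [pow_two]; exact h.JJ) h.neJ

open Classical in
theorem KleinSetting.beta (h : KleinSetting P J a₁ a₂) (hM : IsPModular 2 M) (w : G) :
    ∑ᶠ χ ∈ principalBlock M G, (χ : G → ℂ) J * (χ : G → ℂ) w
      = if 2 ∣ orderOf w then ∑ᶠ χ ∈ principalBlock M G, (χ : G → ℂ) J * (χ : G → ℂ) J else 0 := by
  split_ifs with hw
  · apply finsum_mem_congr rfl
    intro χ hχ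
    rw [h.value_singular hM hχ hw]
  · have h1 := orth_pelem hM _ (Cfsg.Agent.S0936.isPBlock_principal (G := G) M) (y := J)
      ⟨1, by rw [h.orderOf_J, pow_one]⟩ w⁻¹ 1
      ⟨w⁻¹, one_mul _, Commute.one_left _, ⟨0, by simp⟩, by rwa [orderOf_inv]⟩
      (fun hc => h.neJ (isConj_one_left.1 hc))
    rwa [inv_inv] at h1

open Classical in
/-- the character-theoretic count of the `g` with `J J^g` of even order -/
theorem KleinSetting.block_count (h : KleinSetting P J a₁ a₂) (hM : IsPModular 2 M) :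
    (Nat.card G : ℂ) * ∑ᶠ χ ∈ principalBlock M G, (χ : G → ℂ) J ^ 3 / (χ : G → ℂ) 1
      = (Nat.card {g : G // 2 ∣ orderOf (J * (g * J * g⁻¹))} : ℂ)
        * ∑ᶠ χ ∈ principalBlock M G, (χ : G → ℂ) J * (χ : G → ℂ) J := by
  have h1 : ∑ g : G, ∑ᶠ χ ∈ principalBlock M G, (χ : G → ℂ) J * (χ : G → ℂ) (J * (g * J * g⁻¹))
      = (Nat.card {g : G // 2 ∣ orderOf (J * (g * J * g⁻¹))} : ℂ)
        * ∑ᶠ χ ∈ principalBlock M G, (χ : G → ℂ) J * (χ : G → ℂ) J := by
    rw [Finset.sum_congr rfl (fun g _ => h.beta hM (J * (g * J * g⁻¹))), ← Finset.sum_filter, Finset.sum_const, nsmul_eq_mul, Nat.card_eq_fintype_card,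
      Fintype.card_subtype]
  rw [← h1]
  simp only [finsum_mem_irr]
  rw [Finset.sum_comm, Finset.mul_sum]
  apply Finset.sum_congr rfl
  intro χ _
  split_ifs
  · rw [← Finset.mul_sum, sum_char_conj_mul χ.2]; ring
  · simp

/-- **Brauer's formula**, abstract form. -/
theorem KleinSetting.order_formula (h : KleinSetting P J a₁ a₂) (hM : IsPModular 2 M) :
    (Nat.card G : ℂ) * (∑ᶠ χ ∈ principalBlock M G, (χ : G → ℂ) J ^ 3 / (χ : G → ℂ) 1)
        * (Nat.card (Subgroup.centralizer ((P : Subgroup G) : Set G)) : ℂ) ^ 2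
      = 2 * (Nat.card (Subgroup.centralizer ({J} : Set G)) : ℂ) ^ 3
        * ∑ᶠ χ ∈ principalBlock M G, (χ : G → ℂ) J * (χ : G → ℂ) J := by
  have h1 := h.block_count hM
  have h2 : ((Nat.card {g : G // 2 ∣ orderOf (J * (g * J * g⁻¹))} : ℂ))
        * (Nat.card (Subgroup.centralizer ((P : Subgroup G) : Set G)) : ℂ) ^ 2
      = 2 * (Nat.card (Subgroup.centralizer ({J} : Set G)) : ℂ) ^ 3 := by
    exact_mod_cast h.count
  rw [h1, ← h2]
  ring

end block

section four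

variable {G : Type*} [Group G] [Finite G] {M : Ideal AlgInt}

/-- summation over a principal block with four characters -/
theorem finsum_block_four {χ₁ χ₂ χ₃ : IrrCharacter G}
    (hB : principalBlock M G = {χ : IrrCharacter G | (χ : G → ℂ) = (fun _ => 1) ∨ χ = χ₁ ∨ χ = χ₂
      ∨ χ = χ₃})
    (hdist : (χ₁ : G → ℂ) ≠ (fun _ => 1) ∧ (χ₂ : G → ℂ) ≠ (fun _ => 1) ∧
      (χ₃ : G → ℂ) ≠ (fun _ => 1) ∧ χ₁ ≠ χ₂ ∧ χ₁ ≠ χ₃ ∧ χ₂ ≠ χ₃) (F : IrrCharacter G → ℂ) :
    ∑ᶠ χ ∈ principalBlock M G, F χ = F (oneIrr G) + F χ₁ + F χ₂ + F χ₃ := by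
  obtain ⟨d1, d2, d3, d12, d13, d23⟩ := hdist
  have hset : principalBlock M G = {oneIrr G, χ₁, χ₂, χ₃} := by
    rw [hB]
    ext χ
    simp only [Set.mem_ofPred_eq, Set.mem_insert_iff, Set.mem_singleton_iff]
    constructor
    · rintro (h | h | h | h)
      · exact Or.inl (Subtype.ext h)
      · exact Or.inr (Or.inl h)
      · exact Or.inr (Or.inr (Or.inl h))
      · exact Or.inr (Or.inr (Or.inr h))
    · rintro (h | h | h | h)
      · exact Or.inl (by rw [h]; rfl)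
      · exact Or.inr (Or.inl h)
      · exact Or.inr (Or.inr (Or.inl h))
      · exact Or.inr (Or.inr (Or.inr h))
  have n1 : oneIrr G ≠ χ₁ := fun hh => d1 (by rw [← hh]; rfl)
  have n2 : oneIrr G ≠ χ₂ := fun hh => d2 (by rw [← hh]; rfl)
  have n3 : oneIrr G ≠ χ₃ := fun hh => d3 (by rw [← hh]; rfl)
  rw [hset, finsum_mem_insert _ (by simp [n1, n2, n3]) (Set.toFinite _),
    finsum_mem_insert _ (by simp [d12, d13]) (Set.toFinite _), finsum_mem_pair d23]
  ring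

/-- The two numerical relations of the Klein four situation. -/
theorem klein_four_relations (hM : IsPModular 2 M) (g₀ : ℕ) (hg₀ : Odd g₀)
    (hG : Nat.card G = 4 * g₀) (hnc : ¬ ∃ N : Subgroup G, N.Normal ∧ Nat.card N = g₀)
    (P : Sylow 2 G) (J : G) (hJ : J ∈ (P : Subgroup G)) (hJ2 : orderOf J = 2)
    (χ₁ χ₂ χ₃ : IrrCharacter G) (ε₁ ε₂ ε₃ : ℤ)
    (hB : principalBlock M G = {χ : IrrCharacter G | (χ : G → ℂ) = (fun _ => 1) ∨ χ = χ₁ ∨ χ = χ₂
      ∨ χ = χ₃})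
    (hdist : (χ₁ : G → ℂ) ≠ (fun _ => 1) ∧ (χ₂ : G → ℂ) ≠ (fun _ => 1) ∧
      (χ₃ : G → ℂ) ≠ (fun _ => 1) ∧ χ₁ ≠ χ₂ ∧ χ₁ ≠ χ₃ ∧ χ₂ ≠ χ₃)
    (hε : (ε₁ = 1 ∨ ε₁ = -1) ∧ (ε₂ = 1 ∨ ε₂ = -1) ∧ (ε₃ = 1 ∨ ε₃ = -1))
    (hval : (χ₁ : G → ℂ) J = ε₁ ∧ (χ₂ : G → ℂ) J = ε₂ ∧ (χ₃ : G → ℂ) J = ε₃) :
    (1 + ε₁ * (charDegree (χ₁ : G → ℂ) : ℤ) + ε₂ * (charDegree (χ₂ : G → ℂ) : ℤ)
      + ε₃ * (charDegree (χ₃ : G → ℂ) : ℤ) = 0) ∧
    ((Nat.card G : ℚ) * (1 + (ε₁ : ℚ) / (charDegree (χ₁ : G → ℂ) : ℚ)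
        + (ε₂ : ℚ) / (charDegree (χ₂ : G → ℂ) : ℚ) + (ε₃ : ℚ) / (charDegree (χ₃ : G → ℂ) : ℚ))
        * (Nat.card (Subgroup.centralizer ((P : Subgroup G) : Set G)) : ℚ) ^ 2
      = 8 * (Nat.card (Subgroup.centralizer ({J} : Set G)) : ℚ) ^ 3) := by
  classical
  have := Fintype.ofFinite G
  have : Finite (IrrCharacter G) := finite_irrCharacter
  have : Fintype (IrrCharacter G) := Fintype.ofFinite _
  obtain ⟨a₁, a₂, h⟩ := exists_kleinSetting g₀ hg₀ hG hnc P J hJ hJ2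
  have hd : ∀ χ : IrrCharacter G, (χ : G → ℂ) 1 = (charDegree (χ : G → ℂ) : ℂ) :=
    fun χ => Cfsg.Agent.Lib.Helper82.isChar_one_eq (isCharacter_of_isIrrCharacter χ.2)
  obtain ⟨v1, v2, v3⟩ := hval
  have e1 : ∀ x : G, (oneIrr G : G → ℂ) x = 1 := fun _ => rfl
  have c1 : (ε₁ : ℂ) * ε₁ = 1 := by rcases hε.1 with h | h <;> rw [h] <;> norm_num
  have c2 : (ε₂ : ℂ) * ε₂ = 1 := by rcases hε.2.1 with h | h <;> rw [h] <;> norm_num
  have c3 : (ε₃ : ℂ) * ε₃ = 1 := by rcases hε.2.2 with h | h <;> rw [h] <;> norm_num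
  constructor
  · have h1 := h.beta hM 1
    rw [if_neg (by simp), finsum_block_four hB hdist, e1, e1, v1, v2, v3, hd, hd, hd] at h1
    have h2 : ((1 + ε₁ * (charDegree (χ₁ : G → ℂ) : ℤ) + ε₂ * (charDegree (χ₂ : G → ℂ) : ℤ)
      + ε₃ * (charDegree (χ₃ : G → ℂ) : ℤ) : ℤ) : ℂ) = 0 := by
      push_cast
      linear_combination h1
    exact_mod_cast h2
  · have h1 := h.order_formula hM
    rw [finsum_block_four hB hdist, finsum_block_four hB hdist, e1, e1, v1, v2, v3, hd, hd, hd,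
      c1, c2, c3] at h1
    have p1 : (ε₁ : ℂ) ^ 3 = ε₁ := by rw [pow_succ, pow_two, c1, one_mul]
    have p2 : (ε₂ : ℂ) ^ 3 = ε₂ := by rw [pow_succ, pow_two, c2, one_mul]
    have p3 : (ε₃ : ℂ) ^ 3 = ε₃ := by rw [pow_succ, pow_two, c3, one_mul]
    rw [p1, p2, p3] at h1
    have h2 : (((Nat.card G : ℚ) * (1 + (ε₁ : ℚ) / (charDegree (χ₁ : G → ℂ) : ℚ)
        + (ε₂ : ℚ) / (charDegree (χ₂ : G → ℂ) : ℚ) + (ε₃ : ℚ) / (charDegree (χ₃ : G → ℂ) : ℚ))
        * (Nat.card (Subgroup.centralizer ((P : Subgroup G) : Set G)) : ℚ) ^ 2 : ℚ) : ℂ)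
      = ((8 * (Nat.card (Subgroup.centralizer ({J} : Set G)) : ℚ) ^ 3 : ℚ) : ℂ) := by
      push_cast
      linear_combination h1
    exact_mod_cast h2

end four

end Cfsg.Agent.Lib.Helper83
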