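import Cfsg.Agent.Lib.Helper83.AbSylow
import Cfsg.Agent.Lib.Helper78.KleinSylow
import Cfsg.Agent.Lib.Helper81.Subsections
import Cfsg.Agent.Lib.Helper54.StronglyEmbedded
import Cfsg.Agent.Lib.Helper21.DefectCenter2

/-!
# Counting products of involutions in groups with Klein four Sylow 2-subgroups
-/

set_option autoImplicit false
set_option linter.unusedSectionVars false
open Cfsg

namespace Cfsg.Agent.Lib.Helper83

open Cfsg.Agent.Lib.Helper81 Cfsg.Agent.Lib.Helper78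

section general

variable {G : Type*} [Group G] [Finite G]

/-- fibres of the conjugation map restricted to a subgroup -/
theorem card_conj_fiber (H : Subgroup G) (z : G) {u c₀ : G} (hc₀ : c₀ ∈ H)
    (h : c₀ * z * c₀⁻¹ = u) :
    Nat.card {c : G // c ∈ H ∧ c * z * c⁻¹ = u}
      = Nat.card (H ⊓ Subgroup.centralizer ({z} : Set G) : Subgroup G) := by
  apply Nat.card_congr
  refine ⟨fun c => ⟨c₀⁻¹ * c.1, ?_⟩, fun d => ⟨c₀ * d.1, ?_⟩, ?_, ?_⟩
  · refine Subgroup.mem_inf.2 ⟨Subgroup.mul_mem _ (Subgroup.inv_mem _ hc₀) c.2.1, ?_⟩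
    rw [Subgroup.mem_centralizer_singleton_iff]
    have h1 : c.1 * z * c.1⁻¹ = c₀ * z * c₀⁻¹ := c.2.2.trans h.symm
    calc c₀⁻¹ * c.1 * z = c₀⁻¹ * (c.1 * z * c.1⁻¹) * c.1 := by group
      _ = c₀⁻¹ * (c₀ * z * c₀⁻¹) * c.1 := by rw [h1]
      _ = z * (c₀⁻¹ * c.1) := by group
  · have hd := Subgroup.mem_inf.1 d.2
    refine ⟨Subgroup.mul_mem _ hc₀ hd.1, ?_⟩
    have h1 := Subgroup.mem_centralizer_singleton_iff.1 hd.2
    rw [← h]
    calc c₀ * d.1 * z * (c₀ * d.1)⁻¹ = c₀ * (d.1 * z) * d.1⁻¹ * c₀⁻¹ := by group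
      _ = c₀ * (z * d.1) * d.1⁻¹ * c₀⁻¹ := by rw [h1]
      _ = c₀ * z * c₀⁻¹ := by group
  · intro c; ext; simp
  · intro d; ext; simp

theorem card_subtype_eq_sum [Fintype G] (q : G → Prop) [DecidablePred q] :
    Nat.card {g : G // q g} = ∑ g : G, if q g then 1 else 0 := by
  rw [Finset.sum_boole, Nat.card_eq_fintype_card, Fintype.card_subtype]
  simp

open Classical in
/-- double counting: the number of `x` with `x J x⁻¹` in the `H`-class of `z = a J a⁻¹` -/
theorem card_class_preimage (H : Subgroup G) (J a : G) :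
    Nat.card {x : G // ∃ c ∈ H, x * J * x⁻¹ = c * (a * J * a⁻¹) * c⁻¹}
        * Nat.card (H ⊓ Subgroup.centralizer ({a * J * a⁻¹} : Set G) : Subgroup G)
      = Nat.card H * Nat.card (Subgroup.centralizer ({J} : Set G)) := by
  have := Fintype.ofFinite G
  set z := a * J * a⁻¹ with hz
  have h1 : ∑ c : G, ∑ x : G, (if c ∈ H ∧ x * J * x⁻¹ = c * z * c⁻¹ then 1 else 0)
      = Nat.card H * Nat.card (Subgroup.centralizer ({J} : Set G)) := by
    have h2 : ∀ c : G, (∑ x : G, (if c ∈ H ∧ x * J * x⁻¹ = c * z * c⁻¹ then 1 else 0))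
        = (if c ∈ H then 1 else 0) * Nat.card (Subgroup.centralizer ({J} : Set G)) := by
      intro c
      by_cases hc : c ∈ H
      · simp only [hc, true_and, if_true, one_mul]
        rw [← card_subtype_eq_sum]
        have h3 := card_conj_fiber (⊤ : Subgroup G) J (u := c * z * c⁻¹) (c₀ := c * a)
          (Subgroup.mem_top _) (by rw [hz]; group)
        simp only [Subgroup.mem_top, true_and, top_inf_eq] at h3
        exact h3
      · simp [hc]
    rw [Finset.sum_congr rfl (fun c _ => h2 c), ← Finset.sum_mul, ← card_subtype_eq_sum]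
  rw [← h1, Finset.sum_comm, card_subtype_eq_sum, Finset.sum_mul]
  apply Finset.sum_congr rfl
  intro x _
  split_ifs with hx
  · obtain ⟨c₀, hc₀, hx⟩ := hx
    rw [one_mul, ← card_conj_fiber H z hc₀ hx.symm, card_subtype_eq_sum]
    apply Finset.sum_congr rfl
    intro c _
    simp only [eq_comm]
  · rw [zero_mul]
    symm
    apply Finset.sum_eq_zero
    intro c _
    rw [if_neg]
    rintro ⟨h3, h4⟩
    exact hx ⟨c, h3, h4⟩

end general

section klein

universe u

variable {G : Type u} [Group G] [Finite G]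

/-- The setting: a Klein four Sylow 2-subgroup all of whose involutions are conjugate. -/
structure KleinSetting (P : Sylow 2 G) (J a₁ a₂ : G) : Prop where
  card : Nat.card P = 4
  exp : ∀ x : P, x * x = 1
  memJ : J ∈ (P : Subgroup G)
  neJ : J ≠ 1
  mem₁ : a₁ * J * a₁⁻¹ ∈ (P : Subgroup G)
  ne₁ : a₁ * J * a₁⁻¹ ≠ J
  eq₂ : a₂ * J * a₂⁻¹ = J * (a₁ * J * a₁⁻¹)

variable {P : Sylow 2 G} {J a₁ a₂ : G}

theorem KleinSetting.sq (h : KleinSetting P J a₁ a₂) {x : G} (hx : x ∈ (P : Subgroup G)) :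
    x * x = 1 := congrArg Subtype.val (h.exp ⟨x, hx⟩)

theorem KleinSetting.comm (h : KleinSetting P J a₁ a₂) {x y : G} (hx : x ∈ (P : Subgroup G))
    (hy : y ∈ (P : Subgroup G)) : x * y = y * x := by
  have hK : IsKleinFour P := isKleinFour_of_card_of_exp h.card h.exp
  exact congrArg Subtype.val
    ((IsKleinFour.isMulCommutative (G := P)).is_comm.comm ⟨x, hx⟩ ⟨y, hy⟩)

theorem KleinSetting.JJ (h : KleinSetting P J a₁ a₂) : J * J = 1 := h.sq h.memJ

theorem KleinSetting.Jinv (h : KleinSetting P J a₁ a₂) : J⁻¹ = J :=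
  inv_eq_of_mul_eq_one_left h.JJ

theorem KleinSetting.mem₂ (h : KleinSetting P J a₁ a₂) : a₂ * J * a₂⁻¹ ∈ (P : Subgroup G) := by
  rw [h.eq₂]; exact Subgroup.mul_mem _ h.memJ h.mem₁

theorem conj_ne_one {J : G} (hJ : J ≠ 1) (a : G) : a * J * a⁻¹ ≠ 1 := by
  intro h
  apply hJ
  have : J = a⁻¹ * (a * J * a⁻¹) * a := by group
  rw [this, h]; group

/-- the elements of `P` -/
theorem KleinSetting.cases (h : KleinSetting P J a₁ a₂) {x : G} (hx : x ∈ (P : Subgroup G))
    (hx1 : x ≠ 1) : x = J ∨ x = a₁ * J * a₁⁻¹ ∨ x = a₂ * J * a₂⁻¹ := by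
  have hK : IsKleinFour P := isKleinFour_of_card_of_exp h.card h.exp
  by_cases h1 : x = J
  · exact Or.inl h1
  by_cases h2 : x = a₁ * J * a₁⁻¹
  · exact Or.inr (Or.inl h2)
  right; right
  have := IsKleinFour.eq_mul_of_ne_all (G := P) (x := ⟨J, h.memJ⟩) (y := ⟨_, h.mem₁⟩)
    (z := ⟨x, hx⟩) (fun hh => h.neJ (congrArg Subtype.val hh))
    (fun hh => conj_ne_one h.neJ a₁ (congrArg Subtype.val hh))
    (fun hh => h.ne₁ (congrArg Subtype.val hh).symm)
    (fun hh => hx1 (congrArg Subtype.val hh)) (fun hh => h1 (congrArg Subtype.val hh))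
    (fun hh => h2 (congrArg Subtype.val hh))
  rw [h.eq₂]
  exact congrArg Subtype.val this

theorem KleinSetting.isConj (h : KleinSetting P J a₁ a₂) {x : G} (hx : x ∈ (P : Subgroup G))
    (hx1 : x ≠ 1) : ∃ a : G, a * J * a⁻¹ = x := by
  rcases h.cases hx hx1 with rfl | rfl | rfl
  · exact ⟨1, by simp⟩
  · exact ⟨a₁, rfl⟩
  · exact ⟨a₂, rfl⟩

theorem KleinSetting.frob (h : KleinSetting P J a₁ a₂) (y : G) (hy : y ∈ (P : Subgroup G))
    (hy1 : y ≠ 1) :
    Subgroup.centralizer ({y} : Set G) ⊓ Subgroup.normalizer ((P : Subgroup G) : Set G)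
      = Subgroup.centralizer ((P : Subgroup G) : Set G) := by
  apply le_antisymm
  · intro g hg
    obtain ⟨h1, h2⟩ := Subgroup.mem_inf.1 hg
    rw [Subgroup.mem_centralizer_iff]
    intro a ha
    have h3 : Commute g y := Subgroup.mem_centralizer_singleton_iff.1 h1
    exact (commute_of_normalizer_klein P h.card h.exp hy hy1 h2 h3 ha).eq.symm
  · intro g hg
    refine Subgroup.mem_inf.2 ⟨?_, Subgroup.centralizer_le_normalizer _ hg⟩
    rw [Subgroup.mem_centralizer_singleton_iff]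
    exact (Subgroup.mem_centralizer_iff.1 hg y hy).symm

/-- `C(J) ∩ C(z) = C(P)` for `z ∈ P \ ⟨J⟩`. -/
theorem KleinSetting.inf_centralizer (h : KleinSetting P J a₁ a₂) {z : G}
    (hz : z = a₁ * J * a₁⁻¹ ∨ z = a₂ * J * a₂⁻¹) :
    Subgroup.centralizer ({J} : Set G) ⊓ Subgroup.centralizer ({z} : Set G)
      = Subgroup.centralizer ((P : Subgroup G) : Set G) := by
  have hzP : z ∈ (P : Subgroup G) := by
    rcases hz with rfl | rfl
    · exact h.mem₁
    · exact h.mem₂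
  apply le_antisymm
  · intro g hg
    obtain ⟨h1, h2⟩ := Subgroup.mem_inf.1 hg
    rw [Subgroup.mem_centralizer_singleton_iff] at h1 h2
    have h3 : g * (a₁ * J * a₁⁻¹) = (a₁ * J * a₁⁻¹) * g := by
      rcases hz with rfl | rfl
      · exact h2
      · rw [h.eq₂] at h2
        generalize a₁ * J * a₁⁻¹ = w at h2 ⊢
        calc g * w = g * (J * (J * w)) := by rw [← mul_assoc J J, h.JJ, one_mul]
          _ = (g * J) * (J * w) := by rw [mul_assoc]
          _ = J * (g * (J * w)) := by rw [h1, mul_assoc]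
          _ = J * (J * w * g) := by rw [h2]
          _ = w * g := by rw [← mul_assoc, ← mul_assoc, h.JJ, one_mul]
    rw [Subgroup.mem_centralizer_iff]
    intro x hx
    by_cases hx1 : x = 1
    · rw [hx1]; simp
    rcases h.cases hx hx1 with rfl | rfl | rfl
    · exact h1.symm
    · exact h3.symm
    · rw [h.eq₂, mul_assoc, ← h3, ← mul_assoc, ← h1, mul_assoc]
  · intro g hg
    rw [Subgroup.mem_centralizer_iff] at hg
    refine Subgroup.mem_inf.2 ⟨?_, ?_⟩ <;> rw [Subgroup.mem_centralizer_singleton_iff]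
    · exact (hg J h.memJ).symm
    · exact (hg z hzP).symm

/-- the projection of `C(J)` onto its quotient by the normal 2-complement -/
theorem KleinSetting.exists_proj (h : KleinSetting P J a₁ a₂) :
    ∃ (Q : Type u) (_ : CommGroup Q) (π : Subgroup.centralizer ({J} : Set G) →* Q),
      ∀ g : Subgroup.centralizer ({J} : Set G), π g = 1 ↔ ¬ 2 ∣ orderOf (g : G) := by
  have : Fact (Nat.Prime 2) := ⟨Nat.prime_two⟩
  have hK : IsKleinFour P := isKleinFour_of_card_of_exp h.card h.exp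
  have : IsMulCommutative P := IsKleinFour.isMulCommutative
  obtain ⟨K, hKn, hcop, hidx⟩ := exists_normal_compl_centralizer P h.memJ (h.frob J h.memJ h.neJ)
  have hcard : Nat.card (Subgroup.centralizer ({J} : Set G) ⧸ K) = 2 ^ 2 := by
    rw [← Subgroup.index_eq_card, hidx, h.card]; norm_num
  refine ⟨_, IsPGroup.commGroupOfCardEqPrimeSq hcard, QuotientGroup.mk' K, ?_⟩
  intro g
  rw [QuotientGroup.mk'_apply, QuotientGroup.eq_one_iff, Subgroup.orderOf_coe]
  constructor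
  · intro hg h2
    have h3 := h2.trans (Subgroup.orderOf_dvd_natCard K hg)
    have := Nat.Coprime.eq_one_of_dvd hcop.symm h3
    omega
  · intro hg
    rw [← QuotientGroup.eq_one_iff]
    have h3 : orderOf (g : Subgroup.centralizer ({J} : Set G) ⧸ K) ∣ 2 ^ 2 := by
      rw [← hcard]; exact orderOf_dvd_natCard _
    have h4 : orderOf (g : Subgroup.centralizer ({J} : Set G) ⧸ K) ∣ orderOf g := by
      have := orderOf_map_dvd (QuotientGroup.mk' K) g
      simpa using this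
    have h5 : (orderOf (g : Subgroup.centralizer ({J} : Set G) ⧸ K)).Coprime (2 ^ 2) :=
      Nat.Coprime.pow_right _ (Nat.Coprime.coprime_dvd_left h4
        ((Nat.Prime.coprime_iff_not_dvd Nat.prime_two).2 hg).symm)
    exact orderOf_eq_one_iff.1 (Nat.Coprime.eq_one_of_dvd h5 h3)

open Classical in
theorem KleinSetting.exists_proj' (h : KleinSetting P J a₁ a₂) :
    ∃ (Q : Type u) (_ : CommGroup Q) (ρ : G → Q),
      (∀ g ∈ Subgroup.centralizer ({J} : Set G), ∀ k ∈ Subgroup.centralizer ({J} : Set G),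
        ρ (g * k) = ρ g * ρ k) ∧
      (∀ g ∈ Subgroup.centralizer ({J} : Set G), ρ g = 1 ↔ ¬ 2 ∣ orderOf g) ∧
      (∀ c ∈ Subgroup.centralizer ({J} : Set G), ∀ x ∈ Subgroup.centralizer ({J} : Set G),
        ρ (c * x * c⁻¹) = ρ x) := by
  obtain ⟨Q, _, π, hπ⟩ := h.exists_proj
  let ρ : G → Q := fun g => if hg : g ∈ Subgroup.centralizer ({J} : Set G) then π ⟨g, hg⟩ else 1
  have hρ : ∀ g (hg : g ∈ Subgroup.centralizer ({J} : Set G)), ρ g = π ⟨g, hg⟩ :=
    fun g hg => dif_pos hg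
  have hmul : ∀ g ∈ Subgroup.centralizer ({J} : Set G), ∀ k ∈ Subgroup.centralizer ({J} : Set G),
        ρ (g * k) = ρ g * ρ k := by
    intro g hg k hk
    rw [hρ g hg, hρ k hk, hρ _ (Subgroup.mul_mem _ hg hk), ← map_mul]
    rfl
  refine ⟨Q, inferInstance, ρ, hmul, ?_, ?_⟩
  · intro g hg
    rw [hρ g hg]
    exact hπ ⟨g, hg⟩
  · intro c hc x hx
    have hci := Subgroup.inv_mem _ hc
    rw [hρ _ (Subgroup.mul_mem _ (Subgroup.mul_mem _ hc hx) hci), hρ x hx]
    have : (⟨c * x * c⁻¹, Subgroup.mul_mem _ (Subgroup.mul_mem _ hc hx) hci⟩ :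
        Subgroup.centralizer ({J} : Set G)) = ⟨c, hc⟩ * ⟨x, hx⟩ * ⟨c, hc⟩⁻¹ := rfl
    rw [this, map_mul, map_mul, map_inv, mul_comm (π ⟨c, hc⟩), mul_inv_cancel_right]

theorem two_dvd_orderOf_of_invol {x : G} (hx : x * x = 1) (hx1 : x ≠ 1) : 2 ∣ orderOf x := by
  rw [orderOf_eq_prime (p := 2) (by rw [pow_two]; exact hx) hx1]

theorem KleinSetting.le_centralizer (h : KleinSetting P J a₁ a₂) :
    (P : Subgroup G) ≤ Subgroup.centralizer ({J} : Set G) := by
  intro x hx
  rw [Subgroup.mem_centralizer_singleton_iff]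
  exact h.comm hx h.memJ

/-- an involution of `C(J)` is `C(J)`-conjugate to an element of `P` -/
theorem KleinSetting.exists_conj (h : KleinSetting P J a₁ a₂) {u : G} (hu : u * u = 1)
    (hu1 : u ≠ 1) (huH : u ∈ Subgroup.centralizer ({J} : Set G)) :
    ∃ c ∈ Subgroup.centralizer ({J} : Set G), ∃ a ∈ (P : Subgroup G), a ≠ 1 ∧ u = c * a * c⁻¹ := by
  have : Fact (Nat.Prime 2) := ⟨Nat.prime_two⟩
  have hQ : IsPGroup 2 (Subgroup.zpowers u) := IsPGroup.of_card (n := 1) (by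
    rw [Nat.card_zpowers, orderOf_eq_prime (p := 2) (by rw [pow_two]; exact hu) hu1, pow_one])
  obtain ⟨d, hd, hd2⟩ := Cfsg.Agent.Lib.Helper54.exists_conj_mem_sylow P h.le_centralizer _ hQ
    (by rw [Subgroup.zpowers_le]; exact huH)
  refine ⟨d⁻¹, Subgroup.inv_mem _ hd, d * u * d⁻¹, hd2 u (Subgroup.mem_zpowers u),
    conj_ne_one hu1 d, by group⟩

/-- membership in the `C(J)`-class of `z` -/
def clJ (J z u : G) : Prop := ∃ c ∈ Subgroup.centralizer ({J} : Set G), u = c * z * c⁻¹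

theorem KleinSetting.z₁z₂ (h : KleinSetting P J a₁ a₂) :
    (a₁ * J * a₁⁻¹) * (a₂ * J * a₂⁻¹) = J := by
  rw [h.eq₂, h.comm h.memJ h.mem₁, ← mul_assoc, h.sq h.mem₁, one_mul]

theorem KleinSetting.z₂z₁ (h : KleinSetting P J a₁ a₂) :
    (a₂ * J * a₂⁻¹) * (a₁ * J * a₁⁻¹) = J := by
  rw [h.comm h.mem₂ h.mem₁, h.z₁z₂]

theorem KleinSetting.clJ_disjoint (h : KleinSetting P J a₁ a₂) {u : G}
    (h1 : clJ J (a₁ * J * a₁⁻¹) u) (h2 : clJ J (a₂ * J * a₂⁻¹) u) : False := by
  obtain ⟨Q, _, ρ, hmul, hone, hconj⟩ := h.exists_proj'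
  obtain ⟨c, hc, rfl⟩ := h1
  obtain ⟨c', hc', he⟩ := h2
  have m₁ := h.le_centralizer h.mem₁
  have m₂ := h.le_centralizer h.mem₂
  have e1 : ρ (a₁ * J * a₁⁻¹) = ρ (a₂ * J * a₂⁻¹) := by
    rw [← hconj c hc _ m₁, he, hconj c' hc' _ m₂]
  have e2 : ρ J = 1 := by
    rw [← h.z₁z₂, hmul _ m₁ _ m₂, e1, ← hmul _ m₂ _ m₂, h.sq h.mem₂]
    exact (hone 1 (Subgroup.one_mem _)).2 (by simp)
  exact (hone J (h.le_centralizer h.memJ)).1 e2 (two_dvd_orderOf_of_invol h.JJ h.neJ)

/-- products of two involutions whose 2-part is `J` -/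
theorem KleinSetting.isPPart_iff (h : KleinSetting P J a₁ a₂) {u v : G} (hu : u * u = 1)
    (hu1 : u ≠ 1) (hv : v * v = 1) (hv1 : v ≠ 1) :
    IsPPart 2 (u * v) J ↔
      (clJ J (a₁ * J * a₁⁻¹) u ∧ clJ J (a₂ * J * a₂⁻¹) v) ∨
      (clJ J (a₂ * J * a₂⁻¹) u ∧ clJ J (a₁ * J * a₁⁻¹) v) := by
  obtain ⟨Q, _, ρ, hmul, hone, hconj⟩ := h.exists_proj'
  have mJ := h.le_centralizer h.memJ
  have m₁ := h.le_centralizer h.mem₁
  have m₂ := h.le_centralizer h.mem₂
  have hρ1 : ρ 1 = 1 := (hone 1 (Subgroup.one_mem _)).2 (by simp)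
  constructor
  · intro hpart
    obtain ⟨N, hN⟩ := Cfsg.Agent.Lib.Helper21.isPPart_eq_zpow Nat.prime_two hpart
    obtain ⟨w, hw1, hw2, -, hw4⟩ := hpart
    have hui : u⁻¹ = u := inv_eq_of_mul_eq_one_left hu
    have hvi : v⁻¹ = v := inv_eq_of_mul_eq_one_left hv
    have hinv : u * (u * v) * u⁻¹ = (u * v)⁻¹ := by
      rw [mul_inv_rev, hui, hvi, ← mul_assoc, hu, one_mul]
    have huJ : u * J * u⁻¹ = J := by
      rw [← hN, ← conj_zpow, hinv, inv_zpow, hN, h.Jinv]
    have huH : u ∈ Subgroup.centralizer ({J} : Set G) := by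
      rw [Subgroup.mem_centralizer_singleton_iff]
      calc u * J = (u * J * u⁻¹) * u := by group
        _ = J * u := by rw [huJ]
    have hwH : w ∈ Subgroup.centralizer ({J} : Set G) := by
      rw [Subgroup.mem_centralizer_singleton_iff]
      exact hw2.eq.symm
    have hvH : v ∈ Subgroup.centralizer ({J} : Set G) := by
      have : v = u * (J * w) := by rw [hw1, ← mul_assoc, hu, one_mul]
      rw [this]
      exact Subgroup.mul_mem _ huH (Subgroup.mul_mem _ mJ hwH)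
    have e1 : ρ u * ρ v = ρ J := by
      rw [← hmul u huH v hvH, ← hw1, hmul J mJ w hwH, (hone w hwH).2 hw4, mul_one]
    obtain ⟨c, hc, a, ha, ha1, hua⟩ := h.exists_conj hu hu1 huH
    obtain ⟨c', hc', b, hb, hb1, hvb⟩ := h.exists_conj hv hv1 hvH
    have maH := h.le_centralizer ha
    have mbH := h.le_centralizer hb
    have e2 : ρ (a * b * J) = 1 := by
      rw [hmul _ (Subgroup.mul_mem _ maH mbH) _ mJ, hmul a maH b mbH, ← hconj c hc a maH, ← hua,
        ← hconj c' hc' b mbH, ← hvb, e1, ← hmul J mJ J mJ, h.JJ, hρ1]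
    have habJ : a * b * J ∈ (P : Subgroup G) :=
      Subgroup.mul_mem _ (Subgroup.mul_mem _ ha hb) h.memJ
    have e3 : a * b * J = 1 := by
      by_contra hne
      exact (hone _ (h.le_centralizer habJ)).1 e2 (two_dvd_orderOf_of_invol (h.sq habJ) hne)
    have e4 : a * b = J := by
      calc a * b = a * b * (J * J) := by rw [h.JJ, mul_one]
        _ = (a * b * J) * J := by rw [mul_assoc, mul_assoc, mul_assoc]
        _ = J := by rw [e3, one_mul]
    rcases h.cases ha ha1 with rfl | rfl | rfl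
    · exfalso; apply hb1
      exact mul_left_cancel (e4.trans (mul_one _).symm)
    · rcases h.cases hb hb1 with rfl | rfl | rfl
      · exfalso; apply ha1
        exact mul_right_cancel (e4.trans (one_mul _).symm)
      · exfalso; rw [h.sq h.mem₁] at e4; exact h.neJ e4.symm
      · exact Or.inl ⟨⟨c, hc, hua⟩, ⟨c', hc', hvb⟩⟩
    · rcases h.cases hb hb1 with rfl | rfl | rfl
      · exfalso; apply ha1
        exact mul_right_cancel (e4.trans (one_mul _).symm)
      · exact Or.inr ⟨⟨c, hc, hua⟩, ⟨c', hc', hvb⟩⟩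
      · exfalso; rw [h.sq h.mem₂] at e4; exact h.neJ e4.symm
  · intro hcl
    have key : ∀ z z' : G, z ∈ Subgroup.centralizer ({J} : Set G) →
        z' ∈ Subgroup.centralizer ({J} : Set G) → z * z' = J → clJ J z u → clJ J z' v →
        IsPPart 2 (u * v) J := by
      rintro z z' hz hz' hzz ⟨c, hc, rfl⟩ ⟨c', hc', rfl⟩
      have hci := Subgroup.inv_mem _ hc
      have hci' := Subgroup.inv_mem _ hc'
      have huH := Subgroup.mul_mem _ (Subgroup.mul_mem _ hc hz) hci
      have hvH := Subgroup.mul_mem _ (Subgroup.mul_mem _ hc' hz') hci'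
      have hwH := Subgroup.mul_mem _ mJ (Subgroup.mul_mem _ huH hvH)
      refine ⟨J * (c * z * c⁻¹ * (c' * z' * c'⁻¹)), ?_, ?_, ⟨1, ?_⟩, ?_⟩
      · rw [← mul_assoc, h.JJ, one_mul]
      · exact (Subgroup.mem_centralizer_singleton_iff.1 hwH).symm
      · rw [pow_one]
        exact orderOf_eq_prime (p := 2) (by rw [pow_two]; exact h.JJ) h.neJ
      · rw [← hone _ hwH, hmul J mJ _ (Subgroup.mul_mem _ huH hvH), hmul _ huH _ hvH,
          hconj c hc z hz, hconj c' hc' z' hz', ← hmul z hz z' hz', hzz, ← hmul J mJ J mJ, h.JJ, hρ1]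
    rcases hcl with ⟨h1, h2⟩ | ⟨h1, h2⟩
    · exact key _ _ m₁ m₂ h.z₁z₂ h1 h2
    · exact key _ _ m₂ m₁ h.z₂z₁ h1 h2

theorem KleinSetting.conj_sq (h : KleinSetting P J a₁ a₂) (x : G) :
    (x * J * x⁻¹) * (x * J * x⁻¹) = 1 := by
  calc (x * J * x⁻¹) * (x * J * x⁻¹) = x * (J * J) * x⁻¹ := by group
    _ = 1 := by rw [h.JJ]; group

theorem KleinSetting.card_cl (h : KleinSetting P J a₁ a₂) {a : G} (ha : a = a₁ ∨ a = a₂) :
    Nat.card {x : G // clJ J (a * J * a⁻¹) (x * J * x⁻¹)}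
        * Nat.card (Subgroup.centralizer ((P : Subgroup G) : Set G))
      = Nat.card (Subgroup.centralizer ({J} : Set G)) ^ 2 := by
  have h1 := card_class_preimage (Subgroup.centralizer ({J} : Set G)) J a
  rw [h.inf_centralizer (z := a * J * a⁻¹) (by rcases ha with rfl | rfl <;> simp)] at h1
  rw [pow_two]
  exact h1

open Classical in
/-- the number of pairs `(x, y)` such that `J^x J^y` has 2-part `J` -/
theorem KleinSetting.card_pairs [Fintype G] (h : KleinSetting P J a₁ a₂) :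
    (∑ x : G, ∑ y : G, if IsPPart 2 ((x * J * x⁻¹) * (y * J * y⁻¹)) J then 1 else 0)
      = 2 * (Nat.card {x : G // clJ J (a₁ * J * a₁⁻¹) (x * J * x⁻¹)}
        * Nat.card {x : G // clJ J (a₂ * J * a₂⁻¹) (x * J * x⁻¹)}) := by
  have h1 : ∀ x y : G, (if IsPPart 2 ((x * J * x⁻¹) * (y * J * y⁻¹)) J then 1 else 0)
      = (if clJ J (a₁ * J * a₁⁻¹) (x * J * x⁻¹) then 1 else 0)
          * (if clJ J (a₂ * J * a₂⁻¹) (y * J * y⁻¹) then 1 else 0)
        + (if clJ J (a₂ * J * a₂⁻¹) (x * J * x⁻¹) then 1 else 0)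
          * (if clJ J (a₁ * J * a₁⁻¹) (y * J * y⁻¹) then 1 else 0) := by
    intro x y
    rw [h.isPPart_iff (h.conj_sq x) (conj_ne_one h.neJ x) (h.conj_sq y) (conj_ne_one h.neJ y)]
    by_cases p1 : clJ J (a₁ * J * a₁⁻¹) (x * J * x⁻¹)
    · have p2 : ¬ clJ J (a₂ * J * a₂⁻¹) (x * J * x⁻¹) := fun hh => h.clJ_disjoint p1 hh
      by_cases q2 : clJ J (a₂ * J * a₂⁻¹) (y * J * y⁻¹) <;> simp [p1, p2, q2]
    · by_cases p2 : clJ J (a₂ * J * a₂⁻¹) (x * J * x⁻¹)
      · by_cases q1 : clJ J (a₁ * J * a₁⁻¹) (y * J * y⁻¹) <;> simp [p1, p2, q1]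
      · simp [p1, p2]
  simp only [h1, Finset.sum_add_distrib, ← Finset.sum_mul_sum, ← card_subtype_eq_sum]
  ring

/-- every involution-like 2-element is conjugate to `J` -/
theorem KleinSetting.exists_conj_of_two_elem (h : KleinSetting P J a₁ a₂) {v : G}
    (hv : ∃ k : ℕ, orderOf v = 2 ^ k) (hv1 : v ≠ 1) : ∃ z₀ : G, z₀ * J * z₀⁻¹ = v := by
  have : Fact (Nat.Prime 2) := ⟨Nat.prime_two⟩
  obtain ⟨k, hk⟩ := hv
  have hQ : IsPGroup 2 (Subgroup.zpowers v) := IsPGroup.of_card (n := k) (by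
    rw [Nat.card_zpowers, hk])
  obtain ⟨c, -, hc⟩ := Cfsg.Agent.Lib.Helper54.exists_conj_mem_sylow (H := ⊤) P le_top _ hQ le_top
  obtain ⟨a, ha⟩ := h.isConj (hc v (Subgroup.mem_zpowers v)) (conj_ne_one hv1 c)
  refine ⟨c⁻¹ * a, ?_⟩
  calc c⁻¹ * a * J * (c⁻¹ * a)⁻¹ = c⁻¹ * (a * J * a⁻¹) * c := by group
    _ = c⁻¹ * (c * v * c⁻¹) * c := by rw [ha]
    _ = v := by group

open Classical in
theorem KleinSetting.sum_isPPart_conj [Fintype G] (h : KleinSetting P J a₁ a₂) (w : G) :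
    (∑ z : G, if IsPPart 2 w (z * J * z⁻¹) then 1 else 0)
      = if 2 ∣ orderOf w then Nat.card (Subgroup.centralizer ({J} : Set G)) else 0 := by
  split_ifs with hw
  · obtain ⟨v, hv⟩ := exists_isPPart Nat.prime_two w
    have hv1 : v ≠ 1 := by
      rintro rfl
      obtain ⟨y, h1, _, _, h4⟩ := hv
      rw [one_mul] at h1
      rw [h1] at h4
      exact h4 hw
    obtain ⟨z₀, hz₀⟩ := h.exists_conj_of_two_elem hv.choose_spec.2.2.1 hv1
    have h3 := card_conj_fiber (⊤ : Subgroup G) J (u := v) (c₀ := z₀) (Subgroup.mem_top _) hz₀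
    simp only [Subgroup.mem_top, true_and, top_inf_eq] at h3
    rw [← h3, card_subtype_eq_sum]
    apply Finset.sum_congr rfl
    intro z _
    have : IsPPart 2 w (z * J * z⁻¹) ↔ z * J * z⁻¹ = v :=
      ⟨fun hh => isPPart_unique Nat.prime_two hh hv, fun hh => hh ▸ hv⟩
    simp only [this]
  · apply Finset.sum_eq_zero
    intro z _
    rw [if_neg]
    intro hh
    have h1 : IsPPart 2 w 1 := ⟨w, one_mul w, Commute.one_left w, ⟨0, by simp⟩, hw⟩
    exact conj_ne_one h.neJ z (isPPart_unique Nat.prime_two hh h1)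

open Classical in
/-- passing from pairs with 2-part exactly `J` to products `J J^g` of even order -/
theorem KleinSetting.pairs_eq [Fintype G] (h : KleinSetting P J a₁ a₂) :
    (∑ x : G, ∑ y : G, if IsPPart 2 ((x * J * x⁻¹) * (y * J * y⁻¹)) J then 1 else 0)
      = Nat.card (Subgroup.centralizer ({J} : Set G))
        * Nat.card {g : G // 2 ∣ orderOf (J * (g * J * g⁻¹))} := by
  let f : G → G → G → ℕ := fun x y z =>
    if IsPPart 2 ((x * J * x⁻¹) * (y * J * y⁻¹)) (z * J * z⁻¹) then 1 else 0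
  have hinv : ∀ a x y z : G, f (a * x) (a * y) (a * z) = f x y z := by
    intro a x y z
    show (if IsPPart 2 ((a * x * J * (a * x)⁻¹) * (a * y * J * (a * y)⁻¹))
      (a * z * J * (a * z)⁻¹) then 1 else 0) = _
    have e1 : (a * x * J * (a * x)⁻¹) * (a * y * J * (a * y)⁻¹)
        = a * ((x * J * x⁻¹) * (y * J * y⁻¹)) * a⁻¹ := by group
    have e2 : a * z * J * (a * z)⁻¹ = a * (z * J * z⁻¹) * a⁻¹ := by group
    rw [e1, e2]
    simp only [isPPart_conj_iff]
    rfl
  have hα : ∑ z : G, ∑ x : G, ∑ y : G, f x y z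
      = Fintype.card G * ∑ x : G, ∑ y : G, f x y 1 := by
    have : ∀ z : G, ∑ x : G, ∑ y : G, f x y z = ∑ x : G, ∑ y : G, f x y 1 := by
      intro z
      rw [← Equiv.sum_comp (Equiv.mulLeft z)]
      apply Finset.sum_congr rfl
      intro x _
      rw [← Equiv.sum_comp (Equiv.mulLeft z)]
      apply Finset.sum_congr rfl
      intro y _
      have := hinv z x y 1
      rw [mul_one] at this
      exact this
    rw [Finset.sum_congr rfl (fun z _ => this z), Finset.sum_const, Finset.card_univ, smul_eq_mul]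
  have hβ : ∑ x : G, ∑ y : G, ∑ z : G, f x y z
      = Fintype.card G * ∑ y : G, ∑ z : G, f 1 y z := by
    have : ∀ x : G, ∑ y : G, ∑ z : G, f x y z = ∑ y : G, ∑ z : G, f 1 y z := by
      intro x
      rw [← Equiv.sum_comp (Equiv.mulLeft x)]
      apply Finset.sum_congr rfl
      intro y _
      rw [← Equiv.sum_comp (Equiv.mulLeft x)]
      apply Finset.sum_congr rfl
      intro z _
      have := hinv x 1 y z
      rw [mul_one] at this
      exact this
    rw [Finset.sum_congr rfl (fun z _ => this z), Finset.sum_const, Finset.card_univ, smul_eq_mul]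
  have hswap : ∑ z : G, ∑ x : G, ∑ y : G, f x y z = ∑ x : G, ∑ y : G, ∑ z : G, f x y z := by
    rw [Finset.sum_comm]
    apply Finset.sum_congr rfl
    intro x _
    rw [Finset.sum_comm]
  rw [hα, hβ] at hswap
  have hpos : 0 < Fintype.card G := Fintype.card_pos
  have h1 := Nat.eq_of_mul_eq_mul_left hpos hswap
  have h2 : ∀ x y : G, f x y 1
      = if IsPPart 2 ((x * J * x⁻¹) * (y * J * y⁻¹)) J then 1 else 0 := by
    intro x y
    show (if IsPPart 2 ((x * J * x⁻¹) * (y * J * y⁻¹)) (1 * J * 1⁻¹) then 1 else 0) = _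
    simp
  have h3 : ∀ y : G, ∑ z : G, f 1 y z
      = Nat.card (Subgroup.centralizer ({J} : Set G))
        * if 2 ∣ orderOf (J * (y * J * y⁻¹)) then 1 else 0 := by
    intro y
    have := h.sum_isPPart_conj (J * (y * J * y⁻¹))
    have e : ∑ z : G, f 1 y z
        = ∑ z : G, if IsPPart 2 (J * (y * J * y⁻¹)) (z * J * z⁻¹) then 1 else 0 := by
      apply Finset.sum_congr rfl
      intro z _
      show (if IsPPart 2 ((1 * J * 1⁻¹) * (y * J * y⁻¹)) (z * J * z⁻¹) then 1 else 0) = _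
      simp
    rw [e, this]
    split_ifs <;> simp
  simp only [h2] at h1
  rw [h1, Finset.sum_congr rfl (fun y _ => h3 y), ← Finset.mul_sum, ← card_subtype_eq_sum]

/-- **The count.** -/
theorem KleinSetting.count (h : KleinSetting P J a₁ a₂) :
    Nat.card {g : G // 2 ∣ orderOf (J * (g * J * g⁻¹))}
        * Nat.card (Subgroup.centralizer ((P : Subgroup G) : Set G)) ^ 2
      = 2 * Nat.card (Subgroup.centralizer ({J} : Set G)) ^ 3 := by
  have := Fintype.ofFinite G
  have h1 := h.pairs_eq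
  rw [h.card_pairs] at h1
  have h2 := h.card_cl (a := a₁) (Or.inl rfl)
  have h3 := h.card_cl (a := a₂) (Or.inr rfl)
  set n₁ := Nat.card {x : G // clJ J (a₁ * J * a₁⁻¹) (x * J * x⁻¹)}
  set n₂ := Nat.card {x : G // clJ J (a₂ * J * a₂⁻¹) (x * J * x⁻¹)}
  set cP := Nat.card (Subgroup.centralizer ((P : Subgroup G) : Set G))
  set cJ := Nat.card (Subgroup.centralizer ({J} : Set G))
  set D := Nat.card {g : G // 2 ∣ orderOf (J * (g * J * g⁻¹))}
  have hcJ : 0 < cJ := Nat.card_pos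
  have h4 : cJ * (D * cP ^ 2) = cJ * (2 * cJ ^ 3) := by
    calc cJ * (D * cP ^ 2) = (cJ * D) * cP ^ 2 := by ring
      _ = 2 * (n₁ * n₂) * cP ^ 2 := by rw [← h1]
      _ = 2 * ((n₁ * cP) * (n₂ * cP)) := by ring
      _ = 2 * (cJ ^ 2 * cJ ^ 2) := by rw [h2, h3]
      _ = cJ * (2 * cJ ^ 3) := by ring
  exact Nat.eq_of_mul_eq_mul_left hcJ h4

end klein

end Cfsg.Agent.Lib.Helper83
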