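import Cfsg.Agent.Lib.Helper83.KleinBlock
import Cfsg.Agent.Lib.Helper78.RealBlock
import Cfsg.Agent.Lib.Helper78.FrobSchur2
import Cfsg.Agent.S0895

/-!
# Klein four Sylow 2-subgroups: Frobenius–Schur indicators in the principal block
-/

set_option autoImplicit false
set_option linter.unusedSectionVars false
open Cfsg
open scoped ComplexConjugate

namespace Cfsg.Agent.Lib.Helper83

open Cfsg.Agent.Lib.Helper20 Cfsg.Agent.Lib.Helper46 Cfsg.Agent.Lib.Helper81
  Cfsg.Agent.Lib.Helper51 Cfsg.Agent.Lib.Helper78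

section

variable {G : Type*} [Group G] [Fintype G] [Fintype (IrrCharacter G)] {M : Ideal AlgInt}
  {P : Sylow 2 G} {J a₁ a₂ : G}

/-- squares have odd order -/
theorem KleinSetting.sq_odd (h : KleinSetting P J a₁ a₂) (g : G) : ¬ 2 ∣ orderOf (g * g) := by
  obtain ⟨y, v, hv, hcomm, ⟨k, hk⟩, hreg⟩ := exists_isPPart Nat.prime_two g
  have hyy : y * y = 1 := sq_eq_one_of_klein P h.exp hk
  have e : g * g = v * v := by
    rw [← hv]
    calc y * v * (y * v) = y * (v * y) * v := by group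
      _ = y * (y * v) * v := by rw [hcomm.eq]
      _ = (y * y) * (v * v) := by group
      _ = v * v := by rw [hyy, one_mul]
  rw [e, ← pow_two]
  intro hd
  exact hreg (hd.trans (orderOf_pow_dvd 2))

/-- the Frobenius–Schur relation in the principal block -/
theorem KleinSetting.fs_rel (h : KleinSetting P J a₁ a₂) (hM : IsPModular 2 M) :
    ∑ᶠ χ ∈ principalBlock M G, (χ : G → ℂ) J * fsNu (χ : G → ℂ) = 0 := by
  classical
  have h1 : ∑ g : G, ∑ᶠ χ ∈ principalBlock M G, (χ : G → ℂ) J * (χ : G → ℂ) (g * g) = 0 := by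
    apply Finset.sum_eq_zero
    intro g _
    rw [h.beta hM, if_neg (h.sq_odd g)]
  simp only [finsum_mem_irr] at h1 ⊢
  rw [Finset.sum_comm] at h1
  have hG : (Nat.card G : ℂ) ≠ 0 := card_ne_zero_complex
  have h2 : ∀ χ : IrrCharacter G, (∑ g : G, if χ ∈ principalBlock M G then
      (χ : G → ℂ) J * (χ : G → ℂ) (g * g) else 0)
      = (Nat.card G : ℂ) * (if χ ∈ principalBlock M G then
        (χ : G → ℂ) J * fsNu (χ : G → ℂ) else 0) := by
    intro χ
    split_ifs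
    · rw [← Finset.mul_sum, fsNu]
      field_simp
    · simp
  rw [Finset.sum_congr rfl (fun χ _ => h2 χ), ← Finset.mul_sum] at h1
  exact (mul_eq_zero.1 h1).resolve_left hG

theorem conjIrr_mem_principalBlock {χ : IrrCharacter G} (hχ : χ ∈ principalBlock M G) :
    conjIrr χ ∈ principalBlock M G := by
  have h := sameBlock_conjIrr (M := M) (χ := oneIrr G) (ψ := χ) hχ
  have e : (conjIrr (oneIrr G) : G → ℂ) = fun _ => 1 := by
    funext g
    show conj ((oneIrr G : G → ℂ) g) = 1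
    have : (oneIrr G : G → ℂ) g = 1 := rfl
    rw [this, map_one]
  rw [e] at h
  exact h

/-- the indicator of a character of odd degree is `0` or `1` -/
theorem fsNu_of_odd (χ : IrrCharacter G) (hodd : Odd (charDegree (χ : G → ℂ))) :
    (fsNu (χ : G → ℂ) = 1 ∧ ∀ g : G, ((χ : G → ℂ) g).im = 0) ∨
    (fsNu (χ : G → ℂ) = 0 ∧ ∃ g : G, ((χ : G → ℂ) g).im ≠ 0) := by
  by_cases hreal : ∀ g : G, ((χ : G → ℂ) g).im = 0
  · left
    exact ⟨Cfsg.Agent.S0895.result (χ : G → ℂ) χ.2 hreal _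
      (Cfsg.Agent.Lib.Helper82.isChar_one_eq (isCharacter_of_isIrrCharacter χ.2)) hodd, hreal⟩
  · right
    push Not at hreal
    exact ⟨(fsNu_irr χ.2).2.2 hreal, hreal⟩

theorem fsNu_one : fsNu (oneIrr G : G → ℂ) = 1 := by
  have hG : (Nat.card G : ℂ) ≠ 0 := card_ne_zero_complex
  have e : ∀ x : G, (oneIrr G : G → ℂ) x = 1 := fun _ => rfl
  simp only [fsNu, e, Finset.sum_const, Finset.card_univ, nsmul_eq_mul, mul_one]
  rw [← Nat.card_eq_fintype_card]
  exact inv_mul_cancel₀ hG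

theorem irr_invol_parity (χ : IrrCharacter G) {z : G} (hz : orderOf z = 2) :
    ∃ n : ℕ, (χ : G → ℂ) 1 + (χ : G → ℂ) z = 2 * (n : ℂ) := by
  obtain ⟨n, hn⟩ := Cfsg.Agent.Lib.Helper25.lemmaW (isCharacter_of_isIrrCharacter χ.2)
    (g := z) (N := 2) (by norm_num) (by rw [← hz, pow_orderOf_eq_one]) (η := 1) (by simp)
  simp only [Finset.sum_range_succ, Finset.sum_range_zero, pow_zero, pow_one, one_pow, mul_one,
    zero_add] at hn
  exact ⟨n, by rw [hn]; norm_num⟩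

end

theorem klein_arith (Gc cJ cP x : ℕ) (hx : Odd x) (hcP0 : 0 < cP) (hcJ0 : 0 < cJ) (h1 : cP ∣ cJ)
    (h2 : cJ ∣ Gc) (R : Gc * (x + 1) ^ 2 * cP ^ 2 = 4 * cJ ^ 3 * x * (2 * x + 1)) :
    ∃ m : ℕ, 4 * cJ = m * cP * ((2 * x + 1) + 1) ∧
      8 * Gc = m ^ 3 * cP * ((2 * x + 1) ^ 3 - (2 * x + 1)) := by
  obtain ⟨j, rfl⟩ := hx
  obtain ⟨n, rfl⟩ := h1
  obtain ⟨K, rfl⟩ := h2
  have hn0 : 0 < n := Nat.pos_of_mul_pos_left hcJ0 |> fun h => by
    rcases Nat.eq_zero_or_pos n with h0 | h0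
    · subst h0; simp at hcJ0
    · exact h0
  have R' : K * (j + 1) ^ 2 = n ^ 2 * ((4 * j + 3) * (2 * j + 1)) := by
    have hpos : 0 < 4 * n * cP ^ 3 := by positivity
    apply Nat.eq_of_mul_eq_mul_left hpos
    calc 4 * n * cP ^ 3 * (K * (j + 1) ^ 2)
        = cP * n * K * (2 * j + 1 + 1) ^ 2 * cP ^ 2 := by ring
      _ = 4 * (cP * n) ^ 3 * (2 * j + 1) * (2 * (2 * j + 1) + 1) := R
      _ = 4 * n * cP ^ 3 * (n ^ 2 * ((4 * j + 3) * (2 * j + 1))) := by ring
  have c1 : Nat.Coprime (j + 1) (4 * j + 3) := by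
    have : 4 * j + 3 = (j + 1) * 3 + j := by ring
    rw [this, Nat.coprime_mul_left_add_right]
    simp
  have c2 : Nat.Coprime (j + 1) (2 * j + 1) := by
    have : 2 * j + 1 = (j + 1) * 1 + j := by ring
    rw [this, Nat.coprime_mul_left_add_right]
    simp
  have c3 : Nat.Coprime ((j + 1) ^ 2) ((4 * j + 3) * (2 * j + 1)) :=
    Nat.Coprime.pow_left 2 (Nat.Coprime.mul_right c1 c2)
  have d1 : (j + 1) ^ 2 ∣ n ^ 2 := by
    apply c3.dvd_of_dvd_mul_right
    rw [← R']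
    exact Dvd.intro_left K rfl
  have d2 : (j + 1) ∣ n := (Nat.pow_dvd_pow_iff (by norm_num)).1 d1
  obtain ⟨m, rfl⟩ := d2
  refine ⟨m, by ring, ?_⟩
  have hK : K = m ^ 2 * ((4 * j + 3) * (2 * j + 1)) := by
    have hpos : 0 < (j + 1) ^ 2 := by positivity
    apply Nat.eq_of_mul_eq_mul_right hpos
    rw [R']; ring
  have e : (2 * (2 * j + 1) + 1) ^ 3 - (2 * (2 * j + 1) + 1)
      = 8 * ((4 * j + 3) * (2 * j + 1) * (j + 1)) := by
    apply Nat.sub_eq_of_eq_add
    ring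
  rw [e, hK]
  ring

end Cfsg.Agent.Lib.Helper83
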