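import Cfsg.Agent.Lib.Helper83.PerfShape
import Cfsg.Prelude.Def_BlockLocal

set_option autoImplicit false
set_option linter.unusedSectionVars false
open Cfsg
open scoped ComplexConjugate
open Cfsg.Agent.Lib.Helper20 Cfsg.Agent.Lib.Helper81

/-! Assembling perfect isometries from indexed families of characters. -/

namespace Cfsg.Agent.Lib.Helper83

theorem finsum_mem_eq_sum_equiv {α N : Type*} [AddCommMonoid N] {n : ℕ} (s : Set α)
    (e : s ≃ Fin n) (F : α → N) : ∑ᶠ a ∈ s, F a = ∑ i, F (e.symm i : α) := by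
  rw [← finsum_set_coe_eq_finsum_mem]
  have : Fintype s := Fintype.ofEquiv _ e.symm
  rw [finsum_eq_sum_of_fintype, ← Equiv.sum_comp e.symm]

/-- A perfect isometry from an indexed description. -/
theorem exists_isPerfectIsometry_of_indexed {G : Type*} [Group G] {H : Type*} [Group H]
    (p : ℕ) (M : Ideal AlgInt) {n : ℕ} (c : Set (IrrCharacter H)) (B : Set (IrrCharacter G))
    (hne : B.Nonempty) (ec : c ≃ Fin n) (eB : B ≃ Fin n) (s : Fin n → ℤ)
    (hs : ∀ i, s i = 1 ∨ s i = -1)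
    (hperf : IsPerfectFun p M (fun (x : G) (y : H) =>
      ∑ i, (s i : ℂ) * ((eB.symm i : IrrCharacter G) : G → ℂ) x *
        ((ec.symm i : IrrCharacter H) : H → ℂ) y)) :
    ∃ (I : IrrCharacter H → IrrCharacter G) (ε : IrrCharacter H → ℤ),
      IsPerfectIsometry p M c B I ε := by
  classical
  obtain ⟨χ₀, _⟩ := hne
  refine ⟨fun η => if h : η ∈ c then (eB.symm (ec ⟨η, h⟩) : IrrCharacter G) else χ₀,
    fun η => if h : η ∈ c then s (ec ⟨η, h⟩) else 1, ⟨?_, ?_, ?_⟩, ?_, ?_⟩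
  · intro η hη
    simp only [dif_pos hη]
    exact (eB.symm (ec ⟨η, hη⟩)).2
  · intro η hη η' hη' h
    simp only [dif_pos hη, dif_pos hη'] at h
    have h1 := eB.symm.injective (Subtype.ext h)
    have h2 := ec.injective h1
    exact congrArg Subtype.val h2
  · intro χ hχ
    refine ⟨(ec.symm (eB ⟨χ, hχ⟩) : IrrCharacter H), (ec.symm (eB ⟨χ, hχ⟩)).2, ?_⟩
    simp
  · intro η hη
    simp only [dif_pos hη]
    exact hs _
  · have : signedBijectionKernel c
        (fun η => if h : η ∈ c then (eB.symm (ec ⟨η, h⟩) : IrrCharacter G) else χ₀)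
        (fun η => if h : η ∈ c then s (ec ⟨η, h⟩) else 1)
        = fun (x : G) (y : H) => ∑ i, (s i : ℂ) * ((eB.symm i : IrrCharacter G) : G → ℂ) x *
          ((ec.symm i : IrrCharacter H) : H → ℂ) y := by
      funext x y
      unfold signedBijectionKernel
      rw [finsum_mem_eq_sum_equiv c ec]
      apply Finset.sum_congr rfl; intro i _
      simp
    rw [this]
    exact hperf

variable {X : Type*} [Group X] [Finite X]

/-- indexed version of `memLocalRing_div_centralizer_of_vanish` -/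
theorem memLocalRing_div_centralizer_of_vanish' (p : ℕ) [Fact p.Prime] (M : Ideal AlgInt)
    (hM : IsPModular p M) {ι : Type*} [Fintype ι] (f : ι → IrrCharacter X) (a : ι → ℂ)
    (ha : ∀ i, MemLocalRing M (a i))
    (hv : ∀ x : X, ¬ IsPRegular p x → ∑ i, a i * (f i : X → ℂ) x = 0) (x : X) :
    MemLocalRing M ((∑ i, a i * (f i : X → ℂ) x) /
      (Nat.card (Subgroup.centralizer ({x} : Set X)) : ℂ)) := by
  classical
  have : Finite (IrrCharacter X) := finite_irrCharacter
  have : Fintype (IrrCharacter X) := Fintype.ofFinite _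
  have key : ∀ x : X, ∑ᶠ χ ∈ (Set.univ : Set (IrrCharacter X)),
      (∑ i ∈ Finset.univ.filter (fun i => f i = χ), a i) * (χ : X → ℂ) x
      = ∑ i, a i * (f i : X → ℂ) x := by
    intro x
    rw [finsum_mem_univ, finsum_eq_sum_of_fintype]
    rw [← Finset.sum_fiberwise Finset.univ f (fun i => a i * (f i : X → ℂ) x)]
    apply Finset.sum_congr rfl; intro χ _
    rw [Finset.sum_mul]
    apply Finset.sum_congr rfl; intro i hi
    rw [(Finset.mem_filter.1 hi).2]
  rw [← key x]
  apply memLocalRing_div_centralizer_of_vanish p M hM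
  · intro χ _
    exact memLocalRing_sum hM _ _ (fun i _ => ha i)
  · intro x hx
    rw [key x]; exact hv x hx

theorem irr_memLocalRing {p : ℕ} {M : Ideal AlgInt} (hM : IsPModular p M) (χ : IrrCharacter X)
    (x : X) : MemLocalRing M ((χ : X → ℂ) x) :=
  memLocalRing_of_isIntegral hM (isCharacter_isIntegral (isCharacter_of_isIrrCharacter χ.2) _)

section Indexed

variable {G : Type*} [Group G] [Finite G] {H : Type*} [Group H] [Finite H]

/-- the rank three case, indexed form -/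
theorem isPerfectFun_rank_three (M : Ideal AlgInt) (hM : IsPModular 2 M)
    (χ : Fin 4 → IrrCharacter G) (η : Fin 4 → IrrCharacter H) (d d' : Fin 4 → ℤ)
    (h1 : ∀ i j, ∀ x : G, ¬ IsPRegular 2 x →
      (d i : ℂ) * (χ i : G → ℂ) x = (d j : ℂ) * (χ j : G → ℂ) x)
    (h2 : ∀ x : G, IsPRegular 2 x → ∑ i, (d i : ℂ) * (χ i : G → ℂ) x = 0)
    (h1' : ∀ i j, ∀ y : H, ¬ IsPRegular 2 y →
      (d' i : ℂ) * (η i : H → ℂ) y = (d' j : ℂ) * (η j : H → ℂ) y)
    (h2' : ∀ y : H, IsPRegular 2 y → ∑ i, (d' i : ℂ) * (η i : H → ℂ) y = 0)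
    (h3 : ∀ i, ∀ x : G, MemLocalRing M (4 * (χ i : G → ℂ) x /
      (Nat.card (Subgroup.centralizer ({x} : Set G)) : ℂ)))
    (h3' : ∀ i, ∀ y : H, MemLocalRing M (4 * (η i : H → ℂ) y /
      (Nat.card (Subgroup.centralizer ({y} : Set H)) : ℂ))) :
    IsPerfectFun 2 M (fun (x : G) (y : H) =>
      ∑ i, ((d' i * d i : ℤ) : ℂ) * (χ i : G → ℂ) x * (η i : H → ℂ) y) := by
  have : Fact (Nat.Prime 2) := ⟨Nat.prime_two⟩
  have e0 : ∀ (x : G) (y : H), ∑ i, ((d' i * d i : ℤ) : ℂ) * (χ i : G → ℂ) x * (η i : H → ℂ) y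
      = ∑ i, ((d i : ℂ) * (χ i : G → ℂ) x) * ((d' i : ℂ) * (η i : H → ℂ) y) := by
    intro x y
    apply Finset.sum_congr rfl; intro i _
    push_cast; ring
  -- `x` singular
  have eX : ∀ (x : G) (y : H), ¬ IsPRegular 2 x →
      ∑ i, ((d' i * d i : ℤ) : ℂ) * (χ i : G → ℂ) x * (η i : H → ℂ) y
      = ((d 0 : ℂ) * (χ 0 : G → ℂ) x) * ∑ i, (d' i : ℂ) * (η i : H → ℂ) y := by
    intro x y hx
    rw [e0, Finset.mul_sum]
    apply Finset.sum_congr rfl; intro i _
    rw [h1 i 0 x hx]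
  have eY : ∀ (x : G) (y : H), ¬ IsPRegular 2 y →
      ∑ i, ((d' i * d i : ℤ) : ℂ) * (χ i : G → ℂ) x * (η i : H → ℂ) y
      = ((d' 0 : ℂ) * (η 0 : H → ℂ) y) * ∑ i, (d i : ℂ) * (χ i : G → ℂ) x := by
    intro x y hy
    rw [e0, Finset.mul_sum]
    apply Finset.sum_congr rfl; intro i _
    rw [h1' i 0 y hy]; ring
  intro x y
  simp only
  by_cases hx : IsPRegular 2 x
  · by_cases hy : IsPRegular 2 y
    · refine ⟨?_, ?_, Or.inl ⟨fun _ => hy, fun _ => hx⟩⟩
      · have := memLocalRing_div_centralizer_of_vanish' 2 M hM χ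
          (fun i => ((d' i * d i : ℤ) : ℂ) * (η i : H → ℂ) y)
          (fun i => memLocalRing_mul hM (memLocalRing_intCast hM _) (irr_memLocalRing hM _ _))
          (fun x' hx' => by
            have h := eX x' y hx'
            rw [h2' y hy, mul_zero] at h
            rw [← h]
            apply Finset.sum_congr rfl; intro i _; ring) x
        convert this using 2
        apply Finset.sum_congr rfl; intro i _; ring
      · have := memLocalRing_div_centralizer_of_vanish' 2 M hM η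
          (fun i => ((d' i * d i : ℤ) : ℂ) * (χ i : G → ℂ) x)
          (fun i => memLocalRing_mul hM (memLocalRing_intCast hM _) (irr_memLocalRing hM _ _))
          (fun y' hy' => by
            have h := eY x y' hy'
            rw [h2 x hx, mul_zero] at h
            exact h) y
        exact this
    · have h := eY x y hy
      rw [h2 x hx, mul_zero] at h
      rw [h]
      refine ⟨?_, ?_, Or.inr rfl⟩ <;> rw [zero_div] <;> exact memLocalRing_zero hM
  · by_cases hy : IsPRegular 2 y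
    · have h := eX x y hx
      rw [h2' y hy, mul_zero] at h
      rw [h]
      refine ⟨?_, ?_, Or.inr rfl⟩ <;> rw [zero_div] <;> exact memLocalRing_zero hM
    · have h := eX x y hx
      have h4 : ∑ i, (d' i : ℂ) * (η i : H → ℂ) y = 4 * ((d' 0 : ℂ) * (η 0 : H → ℂ) y) := by
        rw [Finset.sum_congr rfl (fun i _ => h1' i 0 y hy)]
        simp
      rw [h4] at h
      rw [h]
      refine ⟨?_, ?_, Or.inl ⟨fun h => absurd h hx, fun h => absurd h hy⟩⟩
      · have := memLocalRing_mul hM (memLocalRing_mul hM (memLocalRing_intCast hM (d 0)) (h3 0 x))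
          (memLocalRing_mul hM (memLocalRing_intCast hM (d' 0)) (irr_memLocalRing hM (η 0) y))
        convert this using 1
        ring
      · have := memLocalRing_mul hM (memLocalRing_mul hM (memLocalRing_intCast hM (d' 0)) (h3' 0 y))
          (memLocalRing_mul hM (memLocalRing_intCast hM (d 0)) (irr_memLocalRing hM (χ 0) x))
        convert this using 1
        ring

/-- the rank one case, indexed form -/
theorem isPerfectFun_rank_one (M : Ideal AlgInt) (hM : IsPModular 2 M)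
    (χ : Fin 4 → IrrCharacter G) (η : Fin 4 → IrrCharacter H)
    (h1 : ∀ i j, ∀ x : G, IsPRegular 2 x → (χ i : G → ℂ) x = (χ j : G → ℂ) x)
    (h2 : ∀ x : G, ¬ IsPRegular 2 x → ∑ i, (χ i : G → ℂ) x = 0)
    (h1' : ∀ i j, ∀ y : H, IsPRegular 2 y → (η i : H → ℂ) y = (η j : H → ℂ) y)
    (h2' : ∀ y : H, ¬ IsPRegular 2 y → ∑ i, (η i : H → ℂ) y = 0)
    (h3 : ∀ i, ∀ x : G, MemLocalRing M (4 * (χ i : G → ℂ) x /
      (Nat.card (Subgroup.centralizer ({x} : Set G)) : ℂ)))
    (h3' : ∀ i, ∀ y : H, MemLocalRing M (4 * (η i : H → ℂ) y /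
      (Nat.card (Subgroup.centralizer ({y} : Set H)) : ℂ)))
    (hL : ∀ σ : Fin 4 → ℤ, (∀ i, σ i = 1 ∨ σ i = -1) → ∑ i, σ i = 0 → ∀ x : G,
      MemLocalRing M ((∑ i, (σ i : ℂ) * (χ i : G → ℂ) x) / 4) ∧
      MemLocalRing M ((∑ i, (σ i : ℂ) * (χ i : G → ℂ) x) /
        (Nat.card (Subgroup.centralizer ({x} : Set G)) : ℂ)))
    (hL' : ∀ σ : Fin 4 → ℤ, (∀ i, σ i = 1 ∨ σ i = -1) → ∑ i, σ i = 0 → ∀ y : H,
      MemLocalRing M ((∑ i, (σ i : ℂ) * (η i : H → ℂ) y) / 4) ∧
      MemLocalRing M ((∑ i, (σ i : ℂ) * (η i : H → ℂ) y) /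
        (Nat.card (Subgroup.centralizer ({y} : Set H)) : ℂ))) :
    IsPerfectFun 2 M (fun (x : G) (y : H) =>
      ∑ i, (((fun _ => 1 : Fin 4 → ℤ) i : ℤ) : ℂ) * (χ i : G → ℂ) x * (η i : H → ℂ) y) := by
  -- the three balanced sign vectors
  have hσ : ∀ σ ∈ ({![1, 1, -1, -1], ![1, -1, 1, -1], ![1, -1, -1, 1]} : Set (Fin 4 → ℤ)),
      (∀ i, σ i = 1 ∨ σ i = -1) ∧ ∑ i, σ i = 0 := by
    intro σ hσ
    rcases hσ with rfl | rfl | rfl
    all_goals
      refine ⟨fun i => ?_, by simp [Fin.sum_univ_four]⟩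
      fin_cases i <;> simp
  have L1 := fun x => hL _ (hσ ![1, 1, -1, -1] (by simp)).1 (hσ ![1, 1, -1, -1] (by simp)).2 x
  have L2 := fun x => hL _ (hσ ![1, -1, 1, -1] (by simp)).1 (hσ ![1, -1, 1, -1] (by simp)).2 x
  have L3 := fun x => hL _ (hσ ![1, -1, -1, 1] (by simp)).1 (hσ ![1, -1, -1, 1] (by simp)).2 x
  have L1' := fun x => hL' _ (hσ ![1, 1, -1, -1] (by simp)).1 (hσ ![1, 1, -1, -1] (by simp)).2 x
  have L2' := fun x => hL' _ (hσ ![1, -1, 1, -1] (by simp)).1 (hσ ![1, -1, 1, -1] (by simp)).2 x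
  have L3' := fun x => hL' _ (hσ ![1, -1, -1, 1] (by simp)).1 (hσ ![1, -1, -1, 1] (by simp)).2 x
  simp only [Fin.sum_univ_four, Matrix.cons_val_zero, Matrix.cons_val_one, Matrix.cons_val,
    Int.cast_one, Int.cast_neg, one_mul, neg_mul] at L1 L2 L3 L1' L2' L3' h2 h2' ⊢
  -- the sums `S`
  have S1 : ∀ x : G, MemLocalRing M (((χ 0 : G → ℂ) x + (χ 1 : G → ℂ) x + (χ 2 : G → ℂ) x +
      (χ 3 : G → ℂ) x) / (Nat.card (Subgroup.centralizer ({x} : Set G)) : ℂ)) := by
    intro x
    by_cases hx : IsPRegular 2 x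
    · rw [h1 1 0 x hx, h1 2 0 x hx, h1 3 0 x hx]
      convert h3 0 x using 2; ring
    · rw [h2 x hx, zero_div]; exact memLocalRing_zero hM
  have S2 : ∀ x : G, MemLocalRing M (((χ 0 : G → ℂ) x + (χ 1 : G → ℂ) x + (χ 2 : G → ℂ) x +
      (χ 3 : G → ℂ) x) / 4) := by
    intro x
    by_cases hx : IsPRegular 2 x
    · rw [h1 1 0 x hx, h1 2 0 x hx, h1 3 0 x hx]
      convert irr_memLocalRing hM (χ 0) x using 1; ring
    · rw [h2 x hx, zero_div]; exact memLocalRing_zero hM
  have S1' : ∀ y : H, MemLocalRing M (((η 0 : H → ℂ) y + (η 1 : H → ℂ) y + (η 2 : H → ℂ) y +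
      (η 3 : H → ℂ) y) / (Nat.card (Subgroup.centralizer ({y} : Set H)) : ℂ)) := by
    intro y
    by_cases hy : IsPRegular 2 y
    · rw [h1' 1 0 y hy, h1' 2 0 y hy, h1' 3 0 y hy]
      convert h3' 0 y using 2; ring
    · rw [h2' y hy, zero_div]; exact memLocalRing_zero hM
  have S2' : ∀ y : H, MemLocalRing M (((η 0 : H → ℂ) y + (η 1 : H → ℂ) y + (η 2 : H → ℂ) y +
      (η 3 : H → ℂ) y) / 4) := by
    intro y
    by_cases hy : IsPRegular 2 y
    · rw [h1' 1 0 y hy, h1' 2 0 y hy, h1' 3 0 y hy]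
      convert irr_memLocalRing hM (η 0) y using 1; ring
    · rw [h2' y hy, zero_div]; exact memLocalRing_zero hM
  intro x y
  refine ⟨?_, ?_, ?_⟩
  · have := memLocalRing_add hM (memLocalRing_add hM (memLocalRing_add hM
      (memLocalRing_mul hM (S1 x) (S2' y)) (memLocalRing_mul hM (L1 x).2 (L1' y).1))
      (memLocalRing_mul hM (L2 x).2 (L2' y).1)) (memLocalRing_mul hM (L3 x).2 (L3' y).1)
    convert this using 1
    ring
  · have := memLocalRing_add hM (memLocalRing_add hM (memLocalRing_add hM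
      (memLocalRing_mul hM (S2 x) (S1' y)) (memLocalRing_mul hM (L1 x).1 (L1' y).2))
      (memLocalRing_mul hM (L2 x).1 (L2' y).2)) (memLocalRing_mul hM (L3 x).1 (L3' y).2)
    convert this using 1
    ring
  · by_cases hx : IsPRegular 2 x
    · by_cases hy : IsPRegular 2 y
      · exact Or.inl ⟨fun _ => hy, fun _ => hx⟩
      · right
        show _ + _ + _ + _ = (0 : ℂ)
        rw [h1 1 0 x hx, h1 2 0 x hx, h1 3 0 x hx]
        linear_combination (χ 0 : G → ℂ) x * h2' y hy
    · by_cases hy : IsPRegular 2 y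
      · right
        show _ + _ + _ + _ = (0 : ℂ)
        rw [h1' 1 0 y hy, h1' 2 0 y hy, h1' 3 0 y hy]
        linear_combination (η 0 : H → ℂ) y * h2 x hx
      · exact Or.inl ⟨fun h => absurd h hx, fun h => absurd h hy⟩

/-- `4 χ(x) / |C(x)|` is a local integer for `χ` in a `2`-block of defect two -/
theorem four_mul_div_centralizer (M : Ideal AlgInt) (hM : IsPModular 2 M)
    (B : Set (IrrCharacter G)) (hB : IsPBlock M B) (hd : blockDefect 2 B = 2)
    (χ : IrrCharacter G) (hχ : χ ∈ B) (x : G) :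
    MemLocalRing M (4 * (χ : G → ℂ) x / (Nat.card (Subgroup.centralizer ({x} : Set G)) : ℂ)) := by
  have : Fact (Nat.Prime 2) := ⟨Nat.prime_two⟩
  have h := pow_defect_mul_div_centralizer 2 M hM B hB χ hχ x
  rw [hd] at h
  convert h using 2
  norm_num

/-- **Rank three**: two `2`-blocks with `k = 4`, `d = 2`, `l = 3` are perfectly isometric. -/
theorem perfect_of_rank_three (M : Ideal AlgInt) (hM : IsPModular 2 M)
    (B : Set (IrrCharacter G)) (hB : IsPBlock M B) (c : Set (IrrCharacter H)) (hc : IsPBlock M c)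
    (hkB : Nat.card B = 4) (hkc : Nat.card c = 4) (hdB : blockDefect 2 B = 2)
    (hdc : blockDefect 2 c = 2) (hlB : blockRank 2 B = 3) (hlc : blockRank 2 c = 3) :
    ∃ (I : IrrCharacter H → IrrCharacter G) (ε : IrrCharacter H → ℤ),
      IsPerfectIsometry 2 M c B I ε := by
  have : Finite (IrrCharacter G) := finite_irrCharacter
  have : Finite (IrrCharacter H) := finite_irrCharacter
  obtain ⟨δ, a1, a2, a3⟩ := four_rank_three_shape M hM B hB hkB hdB hlB
  obtain ⟨δ', b1, b2, b3⟩ := four_rank_three_shape M hM c hc hkc hdc hlc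
  let eB : B ≃ Fin 4 := Finite.equivFinOfCardEq hkB
  let ec : c ≃ Fin 4 := Finite.equivFinOfCardEq hkc
  apply exists_isPerfectIsometry_of_indexed 2 M c B (isPBlock_nonempty hM hB) ec eB
    (fun i => δ' (ec.symm i) * δ (eB.symm i))
  · intro i
    rcases a1 _ (eB.symm i).2 with h | h <;> rcases b1 _ (ec.symm i).2 with h' | h' <;>
      simp [h, h']
  · apply isPerfectFun_rank_three M hM (fun i => (eB.symm i : IrrCharacter G))
      (fun i => (ec.symm i : IrrCharacter H)) (fun i => δ (eB.symm i)) (fun i => δ' (ec.symm i))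
    · intro i j x hx
      exact a2 _ (eB.symm i).2 _ (eB.symm j).2 x hx
    · intro x hx
      rw [← finsum_mem_eq_sum_equiv B eB (fun χ => (δ χ : ℂ) * (χ : G → ℂ) x)]
      exact a3 x hx
    · intro i j y hy
      exact b2 _ (ec.symm i).2 _ (ec.symm j).2 y hy
    · intro y hy
      rw [← finsum_mem_eq_sum_equiv c ec (fun χ => (δ' χ : ℂ) * (χ : H → ℂ) y)]
      exact b3 y hy
    · intro i x
      exact four_mul_div_centralizer M hM B hB hdB _ (eB.symm i).2 x
    · intro i y
      exact four_mul_div_centralizer M hM c hc hdc _ (ec.symm i).2 y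

/-- the local hypothesis `(L)` for a set of four characters -/
def BalancedIntegral {X : Type*} [Group X] (M : Ideal AlgInt) (B : Set (IrrCharacter X)) : Prop :=
  ∀ σ : IrrCharacter X → ℤ, (∀ χ ∈ B, σ χ = 1 ∨ σ χ = -1) → ∑ᶠ χ ∈ B, σ χ = 0 → ∀ x : X,
    MemLocalRing M ((∑ᶠ χ ∈ B, (σ χ : ℂ) * (χ : X → ℂ) x) / 4) ∧
    MemLocalRing M ((∑ᶠ χ ∈ B, (σ χ : ℂ) * (χ : X → ℂ) x) /
      (Nat.card (Subgroup.centralizer ({x} : Set X)) : ℂ))

theorem BalancedIntegral.indexed {X : Type*} [Group X] {M : Ideal AlgInt}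
    {B : Set (IrrCharacter X)} (h : BalancedIntegral M B) (eB : B ≃ Fin 4) (σ : Fin 4 → ℤ)
    (h1 : ∀ i, σ i = 1 ∨ σ i = -1) (h2 : ∑ i, σ i = 0) (x : X) :
    MemLocalRing M ((∑ i, (σ i : ℂ) * ((eB.symm i : IrrCharacter X) : X → ℂ) x) / 4) ∧
    MemLocalRing M ((∑ i, (σ i : ℂ) * ((eB.symm i : IrrCharacter X) : X → ℂ) x) /
      (Nat.card (Subgroup.centralizer ({x} : Set X)) : ℂ)) := by
  classical
  have h3 := h (fun χ => if hχ : χ ∈ B then σ (eB ⟨χ, hχ⟩) else 0)
    (fun χ hχ => by simp only [dif_pos hχ]; exact h1 _)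
    (by
      rw [finsum_mem_eq_sum_equiv B eB, ← h2]
      apply Finset.sum_congr rfl; intro i _
      simp) x
  rw [finsum_mem_eq_sum_equiv B eB] at h3
  have e : ∑ i, (((fun χ => if hχ : χ ∈ B then σ (eB ⟨χ, hχ⟩) else 0)
        (eB.symm i : IrrCharacter X) : ℤ) : ℂ) * ((eB.symm i : IrrCharacter X) : X → ℂ) x
      = ∑ i, (σ i : ℂ) * ((eB.symm i : IrrCharacter X) : X → ℂ) x := by
    apply Finset.sum_congr rfl; intro i _
    simp
  rw [e] at h3
  exact h3

/-- **Rank one**: two `2`-blocks with `k = 4`, `d = 2`, `l = 1` satisfying the local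
integrality hypothesis are perfectly isometric. -/
theorem perfect_of_rank_one (M : Ideal AlgInt) (hM : IsPModular 2 M)
    (B : Set (IrrCharacter G)) (hB : IsPBlock M B) (c : Set (IrrCharacter H)) (hc : IsPBlock M c)
    (hkB : Nat.card B = 4) (hkc : Nat.card c = 4) (hdB : blockDefect 2 B = 2)
    (hdc : blockDefect 2 c = 2) (hlB : blockRank 2 B = 1) (hlc : blockRank 2 c = 1)
    (hLB : BalancedIntegral M B) (hLc : BalancedIntegral M c) :
    ∃ (I : IrrCharacter H → IrrCharacter G) (ε : IrrCharacter H → ℤ),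
      IsPerfectIsometry 2 M c B I ε := by
  have : Finite (IrrCharacter G) := finite_irrCharacter
  have : Finite (IrrCharacter H) := finite_irrCharacter
  obtain ⟨a1, a2⟩ := rank_one_shape 2 M hM B hB (by rw [hkB, hdB]; norm_num) hlB
  obtain ⟨b1, b2⟩ := rank_one_shape 2 M hM c hc (by rw [hkc, hdc]; norm_num) hlc
  let eB : B ≃ Fin 4 := Finite.equivFinOfCardEq hkB
  let ec : c ≃ Fin 4 := Finite.equivFinOfCardEq hkc
  apply exists_isPerfectIsometry_of_indexed 2 M c B (isPBlock_nonempty hM hB) ec eB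
    (fun _ => 1)
  · intro i; left; rfl
  · apply isPerfectFun_rank_one M hM (fun i => (eB.symm i : IrrCharacter G))
      (fun i => (ec.symm i : IrrCharacter H))
    · intro i j x hx
      exact a1 _ (eB.symm i).2 _ (eB.symm j).2 x hx
    · intro x hx
      rw [← finsum_mem_eq_sum_equiv B eB (fun χ => (χ : G → ℂ) x)]
      exact a2 x hx
    · intro i j y hy
      exact b1 _ (ec.symm i).2 _ (ec.symm j).2 y hy
    · intro y hy
      rw [← finsum_mem_eq_sum_equiv c ec (fun χ => (χ : H → ℂ) y)]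
      exact b2 y hy
    · intro i x
      exact four_mul_div_centralizer M hM B hB hdB _ (eB.symm i).2 x
    · intro i y
      exact four_mul_div_centralizer M hM c hc hdc _ (ec.symm i).2 y
    · exact fun σ h1 h2 x => hLB.indexed eB σ h1 h2 x
    · exact fun σ h1 h2 y => hLc.indexed ec σ h1 h2 y

end Indexed

end Cfsg.Agent.Lib.Helper83
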