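import Cfsg.Agent.Lib.Helper83.PerfTools

set_option autoImplicit false
set_option linter.unusedSectionVars false
open Cfsg
open scoped ComplexConjugate
open Cfsg.Agent.Lib.Helper20 Cfsg.Agent.Lib.Helper81

/-! The shape of the characters of a block with `k(B) = p ^ d`, `l(B) = 1`, and of a `2`-block
with `k(B) = 4`, `d = 2`, `l(B) = 3`. -/

namespace Cfsg.Agent.Lib.Helper83

variable {X : Type*} [Group X] [Finite X]

/-- `l(B) = 1` and `k(B) = p ^ d`: all characters of `B` agree on `p`-regular elements, and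
their sum vanishes on `p`-singular elements. -/
theorem rank_one_shape (p : ℕ) (M : Ideal AlgInt) (hM : IsPModular p M)
    (B : Set (IrrCharacter X)) (hB : IsPBlock M B) (hk : Nat.card B = p ^ blockDefect p B)
    (hl : blockRank p B = 1) :
    (∀ χ ∈ B, ∀ ψ ∈ B, ∀ x : X, IsPRegular p x → (χ : X → ℂ) x = (ψ : X → ℂ) x) ∧
      (∀ x : X, ¬ IsPRegular p x → ∑ᶠ χ ∈ B, (χ : X → ℂ) x = 0) := by
  classical
  have : Fintype X := Fintype.ofFinite X
  have : Finite (IrrCharacter X) := finite_irrCharacter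
  have : Fintype (IrrCharacter X) := Fintype.ofFinite _
  have hp : p.Prime := hM.1
  obtain ⟨φ, d, n, -, h2, h3⟩ := Cfsg.Agent.Lib.Helper78.rank_one_structure hM hB hl
  have hreg1 : IsPRegular p (1 : X) := by
    unfold IsPRegular
    rw [orderOf_one]
    exact hp.one_lt.ne' ∘ Nat.dvd_one.1
  have hd1 : ∀ χ ∈ B, 1 ≤ d χ := by
    intro χ hχ
    by_contra hcon
    have h0 : d χ = 0 := by omega
    have := h2 χ hχ 1 hreg1
    rw [h0] at this
    simp only [Nat.cast_zero, zero_mul] at this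
    exact irr_one_ne_zero χ.2 this
  have hcard : Nat.card B = ∑ χ : IrrCharacter X, (if χ ∈ B then 1 else 0) := by
    rw [Nat.card_eq_fintype_card, Fintype.card_subtype, Finset.card_filter]
  have hdeq : ∀ χ ∈ B, d χ = 1 := by
    by_contra hcon
    push Not at hcon
    obtain ⟨χ, hχ, hne⟩ := hcon
    have hlt : ∑ χ : IrrCharacter X, (if χ ∈ B then 1 else 0)
        < ∑ χ : IrrCharacter X, (if χ ∈ B then d χ ^ 2 else 0) := by
      apply Finset.sum_lt_sum
      · intro ψ _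
        split_ifs with hψ
        · exact Nat.one_le_pow _ _ (hd1 ψ hψ)
        · exact le_refl _
      · refine ⟨χ, Finset.mem_univ _, ?_⟩
        rw [if_pos hχ, if_pos hχ]
        have := hd1 χ hχ
        have h2' : 2 ≤ d χ := by omega
        nlinarith
    rw [h3, ← hcard, hk] at hlt
    exact lt_irrefl _ hlt
  have hval : ∀ χ ∈ B, ∀ x : X, IsPRegular p x → (χ : X → ℂ) x = φ x := by
    intro χ hχ x hx
    rw [h2 χ hχ x hx, hdeq χ hχ]; simp
  refine ⟨fun χ hχ ψ hψ x hx => by rw [hval χ hχ x hx, hval ψ hψ x hx], ?_⟩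
  intro x hx
  have hx' : p ∣ orderOf x := by
    unfold IsPRegular at hx
    exact not_not.1 hx
  have h4 := (bS_regular_singular hM B hB (x := (1 : X)) (y := x) hreg1 hx').2
  unfold bS at h4
  obtain ⟨χ₀, hχ₀⟩ := isPBlock_nonempty hM hB
  have h5 : ∑ᶠ χ ∈ B, (χ : X → ℂ) x * conj ((χ : X → ℂ) 1)
      = (∑ᶠ χ ∈ B, (χ : X → ℂ) x) * conj (φ 1) := by
    rw [finsum_mem_irr, finsum_mem_irr, Finset.sum_mul]
    apply Finset.sum_congr rfl; intro χ _
    split_ifs with hχ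
    · rw [hval χ hχ 1 hreg1]
    · simp
  rw [h5] at h4
  have h6 : conj (φ 1) ≠ 0 := by
    rw [Ne, map_eq_zero, ← hval χ₀ hχ₀ 1 hreg1]
    exact irr_one_ne_zero χ₀.2
  exact (mul_eq_zero.1 h4).resolve_right h6

/-- a function whose norm is concentrated on the `p`-regular elements vanishes on the
`p`-singular ones -/
theorem vanish_singular_of_norm_eq [Fintype X] {p : ℕ} {a : X → ℂ}
    (h : classInner a a = classInner (pRegularPart p a) a) :
    ∀ x : X, ¬ IsPRegular p x → a x = 0 := by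
  classical
  have hX : (Nat.card X : ℂ)⁻¹ ≠ 0 := inv_ne_zero (by exact_mod_cast Nat.card_pos.ne')
  simp only [classInner, pRegularPart_eq] at h
  have h1 := mul_left_cancel₀ hX h
  have h2 : ∑ g : X, (if IsPRegular p g then (0 : ℝ) else ‖a g‖ ^ 2) = 0 := by
    have h3 : ((∑ g : X, (if IsPRegular p g then (0 : ℝ) else ‖a g‖ ^ 2) : ℝ) : ℂ)
        = ∑ g : X, a g * conj (a g) - ∑ g : X, (if IsPRegular p g then a g else 0) * conj (a g) := by
      rw [← Finset.sum_sub_distrib]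
      push_cast
      apply Finset.sum_congr rfl; intro g _
      split_ifs
      · simp
      · rw [Complex.mul_conj, Complex.normSq_eq_norm_sq]; simp
    rw [h1, sub_self] at h3
    exact_mod_cast h3
  intro x hx
  have h3 := (Finset.sum_eq_zero_iff_of_nonneg (fun g _ => by
    split_ifs
    · exact le_refl _
    · positivity)).1 h2 x (Finset.mem_univ x)
  rw [if_neg hx] at h3
  simpa using h3

/-- `k(B) = 4`, `d = 2`, `l(B) = 3`: up to signs all characters of `B` agree on `2`-singular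
elements, and the signed sum vanishes on `2`-regular elements. -/
theorem four_rank_three_shape (M : Ideal AlgInt) (hM : IsPModular 2 M)
    (B : Set (IrrCharacter X)) (hB : IsPBlock M B) (hk : Nat.card B = 4)
    (hd : blockDefect 2 B = 2) (hl : blockRank 2 B = 3) :
    ∃ δ : IrrCharacter X → ℤ, (∀ χ ∈ B, δ χ = 1 ∨ δ χ = -1) ∧
      (∀ χ ∈ B, ∀ ψ ∈ B, ∀ x : X, ¬ IsPRegular 2 x →
        (δ χ : ℂ) * (χ : X → ℂ) x = (δ ψ : ℂ) * (ψ : X → ℂ) x) ∧
      (∀ x : X, IsPRegular 2 x → ∑ᶠ χ ∈ B, (δ χ : ℂ) * (χ : X → ℂ) x = 0) := by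
  classical
  have : Fintype X := Fintype.ofFinite X
  have : Finite (IrrCharacter X) := finite_irrCharacter
  have : Fintype (IrrCharacter X) := Fintype.ofFinite _
  set s : Finset (IrrCharacter X) := Finset.univ.filter (fun χ => χ ∈ B) with hs
  have hmem : ∀ χ, χ ∈ s ↔ χ ∈ B := fun χ => by simp [hs]
  have hscard : s.card = 4 := by
    rw [← hk, Nat.card_eq_fintype_card, Fintype.card_subtype]
  set K : IrrCharacter X → IrrCharacter X → ℤ := fun χ ψ => kC 2 B χ ψ with hK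
  have f1 : ∑ χ ∈ s, K χ χ = 12 := by
    have := pow_mul_blockRank hM B hB
    rw [hd, hl] at this
    rw [hs, Finset.sum_filter, ← this]; norm_num
  have f2 : ∀ χ ∈ B, ∑ ψ ∈ s, K χ ψ ^ 2 = 4 * K χ χ := by
    intro χ hχ
    have := sum_kC_sq hM hB hχ
    rw [hd] at this
    rw [hs, Finset.sum_filter, this]; norm_num [hK]
  have f3 : ∀ χ ∈ B, 0 ≤ K χ χ ∧ K χ χ ≤ 4 := by
    intro χ hχ
    have := kC_self_le hM hB hχ
    rw [hd] at this
    exact ⟨this.1, by simpa using this.2⟩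
  have f2' : ∀ χ ∈ B, K χ χ ^ 2 + ∑ ψ ∈ s.erase χ, K χ ψ ^ 2 = 4 * K χ χ := by
    intro χ hχ
    rw [Finset.add_sum_erase s (fun ψ => K χ ψ ^ 2) ((hmem χ).2 hχ)]
    exact f2 χ hχ
  have f4 : ∀ χ ∈ B, K χ χ ≠ 4 := by
    intro χ hχ h4
    have h5 := f2' χ hχ
    rw [h4] at h5
    have h6 : ∑ ψ ∈ s.erase χ, K χ ψ ^ 2 = 0 := by linarith
    have h7 : ∀ ψ ∈ B, ψ ≠ χ → K χ ψ = 0 := by
      intro ψ hψ hne
      have := (Finset.sum_eq_zero_iff_of_nonneg (fun ψ _ => sq_nonneg (K χ ψ))).1 h6 ψ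
        (Finset.mem_erase.2 ⟨hne, (hmem ψ).2 hψ⟩)
      exact pow_eq_zero_iff (two_ne_zero) |>.1 this
    obtain ⟨χ₀, hχ₀, hmin⟩ := exists_minDeg (p := 2) (isPBlock_nonempty hM hB)
    have h0 : blockHeight 2 B (χ₀ : X → ℂ) = 0 := (blockHeight_eq_zero_iff hχ₀).2 hmin
    by_cases hc : χ₀ = χ
    · subst hc
      have hpos : 0 < (s.erase χ₀).card := by
        rw [Finset.card_erase_of_mem ((hmem χ₀).2 hχ), hscard]; norm_num
      obtain ⟨ψ, hψ⟩ := Finset.card_pos.1 hpos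
      have hψ' := Finset.mem_erase.1 hψ
      exact (kC_of_height_zero hM hB hχ ((hmem ψ).1 hψ'.2) h0).2 (h7 ψ ((hmem ψ).1 hψ'.2) hψ'.1)
    · have h8 := (kC_of_height_zero hM hB hχ₀ hχ h0).2
      rw [kC_symm hM.1] at h8
      exact h8 (h7 χ₀ hχ₀ hc)
  have f5 : ∀ χ ∈ B, K χ χ = 3 := by
    have h1 : ∑ χ ∈ s, (3 - K χ χ) = 0 := by
      rw [Finset.sum_sub_distrib, f1, Finset.sum_const, hscard]; norm_num
    intro χ hχ
    have := (Finset.sum_eq_zero_iff_of_nonneg (fun χ hχ => by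
      have h3 := f3 χ ((hmem χ).1 hχ)
      have h4 := f4 χ ((hmem χ).1 hχ)
      have : K χ χ ≤ 3 := by omega
      linarith)).1 h1 χ ((hmem χ).2 hχ)
    linarith
  have f6 : ∀ χ ∈ B, ∀ ψ ∈ B, ψ ≠ χ → K χ ψ ^ 2 = 1 := by
    intro χ hχ
    have h5 := f2' χ hχ
    rw [f5 χ hχ] at h5
    have h6 : ∑ ψ ∈ s.erase χ, K χ ψ ^ 2 = 3 := by linarith
    have hc3 : (s.erase χ).card = 3 := by
      rw [Finset.card_erase_of_mem ((hmem χ).2 hχ), hscard]
    have hle : ∀ ψ ∈ s.erase χ, K χ ψ ^ 2 ≤ 1 := by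
      intro ψ hψ
      have h7 : K χ ψ ^ 2 ≤ 3 := by
        rw [← h6]
        exact Finset.single_le_sum (f := fun ψ => K χ ψ ^ 2) (fun ψ _ => sq_nonneg _) hψ
      have h8 : -2 < K χ ψ := by nlinarith
      have h9 : K χ ψ < 2 := by nlinarith
      have h10 : K χ ψ = -1 ∨ K χ ψ = 0 ∨ K χ ψ = 1 := by omega
      rcases h10 with h | h | h <;> rw [h] <;> norm_num
    have h1 : ∑ ψ ∈ s.erase χ, (1 - K χ ψ ^ 2) = 0 := by
      rw [Finset.sum_sub_distrib, h6, Finset.sum_const, hc3]; norm_num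
    intro ψ hψ hne
    have hψ' : ψ ∈ s.erase χ := Finset.mem_erase.2 ⟨hne, (hmem ψ).2 hψ⟩
    have := (Finset.sum_eq_zero_iff_of_nonneg (fun ψ hψ => by
      have := hle ψ hψ; linarith)).1 h1 ψ hψ'
    linarith
  -- values of the contributions
  have hmC : ∀ χ : IrrCharacter X, ∀ ψ ∈ B, mC 2 (χ : X → ℂ) (ψ : X → ℂ) = (K χ ψ : ℂ) / 4 := by
    intro χ ψ hψ
    have := kC_spec hM χ hψ
    rw [hd] at this
    rw [hK]
    simp only
    rw [this]; norm_num
  obtain ⟨χ₀, hχ₀⟩ := isPBlock_nonempty hM hB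
  set δ : IrrCharacter X → ℤ := fun ψ => if ψ = χ₀ then 1 else - K χ₀ ψ with hδ
  have hδ1 : ∀ χ ∈ B, δ χ = 1 ∨ δ χ = -1 := by
    intro χ hχ
    by_cases hc : χ = χ₀
    · left; simp [hδ, hc]
    · have h1 := f6 χ₀ hχ₀ χ hχ hc
      have h2 : K χ₀ χ = 1 ∨ K χ₀ χ = -1 := by
        have : (K χ₀ χ - 1) * (K χ₀ χ + 1) = 0 := by ring_nf; linarith
        rcases mul_eq_zero.1 this with h | h
        · left; linarith
        · right; linarith
      simp only [hδ, if_neg hc]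
      rcases h2 with h | h
      · right; rw [h]
      · left; rw [h]; norm_num
  have hkey : ∀ ψ ∈ B, ∀ x : X, ¬ IsPRegular 2 x → (δ ψ : ℂ) * (ψ : X → ℂ) x = (χ₀ : X → ℂ) x := by
    intro ψ hψ x hx
    by_cases hc : ψ = χ₀
    · simp [hδ, hc]
    · have hδψ : δ ψ = - K χ₀ ψ := by simp [hδ, hc]
      have hsq : (K χ₀ ψ : ℂ) ^ 2 = 1 := by exact_mod_cast f6 χ₀ hχ₀ ψ hψ hc
      have hne : (ψ : X → ℂ) ≠ (χ₀ : X → ℂ) := fun h => hc (Subtype.ext h)
      set c : ℂ := (δ ψ : ℂ) with hcdef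
      have hcc : conj c = c := by rw [hcdef]; simp
      have hcK : c = - (K χ₀ ψ : ℂ) := by rw [hcdef, hδψ]; push_cast; ring
      have hnorm : classInner (c • (ψ : X → ℂ) - (χ₀ : X → ℂ)) (c • (ψ : X → ℂ) - (χ₀ : X → ℂ))
          = classInner (pRegularPart 2 (c • (ψ : X → ℂ) - (χ₀ : X → ℂ)))
            (c • (ψ : X → ℂ) - (χ₀ : X → ℂ)) := by
        have e1 : pRegularPart 2 (c • (ψ : X → ℂ) - (χ₀ : X → ℂ))
            = c • pRegularPart 2 (ψ : X → ℂ) - pRegularPart 2 (χ₀ : X → ℂ) := by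
          rw [sub_eq_add_neg, pRegularPart_add, pRegularPart_smul, sub_eq_add_neg]
          congr 1
          have : -(χ₀ : X → ℂ) = (-1 : ℂ) • (χ₀ : X → ℂ) := by simp
          rw [this, pRegularPart_smul]; simp
        rw [e1]
        simp only [classInner_sub_left, classInner_sub_right, classInner_smul_left,
          classInner_smul_right, hcc]
        rw [classInner_irr_self ψ.2, classInner_irr_self χ₀.2, classInner_irr_ne ψ.2 χ₀.2 hne,
          classInner_irr_ne χ₀.2 ψ.2 hne.symm]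
        have m1 : classInner (pRegularPart 2 (ψ : X → ℂ)) (ψ : X → ℂ) = 3 / 4 := by
          have := hmC ψ ψ hψ
          rw [f5 ψ hψ] at this
          simpa [mC] using this
        have m2 : classInner (pRegularPart 2 (χ₀ : X → ℂ)) (χ₀ : X → ℂ) = 3 / 4 := by
          have := hmC χ₀ χ₀ hχ₀
          rw [f5 χ₀ hχ₀] at this
          simpa [mC] using this
        have m3 : classInner (pRegularPart 2 (χ₀ : X → ℂ)) (ψ : X → ℂ) = (K χ₀ ψ : ℂ) / 4 :=
          hmC χ₀ ψ hψ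
        have m4 : classInner (pRegularPart 2 (ψ : X → ℂ)) (χ₀ : X → ℂ) = (K χ₀ ψ : ℂ) / 4 := by
          have := mC_symm (p := 2) ψ χ₀
          unfold mC at this
          rw [this, m3]
        rw [m1, m2, m3, m4, hcK]
        linear_combination (-1 / 4 : ℂ) * hsq
      have := vanish_singular_of_norm_eq hnorm x hx
      simp only [Pi.sub_apply, Pi.smul_apply, smul_eq_mul] at this
      exact sub_eq_zero.1 this
  refine ⟨δ, hδ1, fun χ hχ ψ hψ x hx => by rw [hkey χ hχ x hx, hkey ψ hψ x hx], ?_⟩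
  -- a singular element where `χ₀` does not vanish
  obtain ⟨y, hy, hy0⟩ : ∃ y : X, ¬ IsPRegular 2 y ∧ (χ₀ : X → ℂ) y ≠ 0 := by
    by_contra hcon
    push Not at hcon
    have h1 : pRegularPart 2 (χ₀ : X → ℂ) = (χ₀ : X → ℂ) := by
      rw [pRegularPart_eq]
      funext g
      split_ifs with hg
      · rfl
      · exact (hcon g hg).symm
    have h2 := hmC χ₀ χ₀ hχ₀
    rw [f5 χ₀ hχ₀] at h2
    unfold mC at h2
    rw [h1, classInner_irr_self χ₀.2] at h2
    norm_num at h2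
  intro x hx
  have hy' : 2 ∣ orderOf y := by
    unfold IsPRegular at hy
    exact not_not.1 hy
  have h4 := (bS_regular_singular hM B hB (x := x) (y := y) hx hy').1
  unfold bS at h4
  have h5 : ∑ᶠ χ ∈ B, (χ : X → ℂ) x * conj ((χ : X → ℂ) y)
      = (∑ᶠ χ ∈ B, (δ χ : ℂ) * (χ : X → ℂ) x) * conj ((χ₀ : X → ℂ) y) := by
    rw [finsum_mem_irr, finsum_mem_irr, Finset.sum_mul]
    apply Finset.sum_congr rfl; intro χ _
    split_ifs with hχ
    · have h6 := hkey χ hχ y hy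
      have h7 : ((δ χ : ℂ)) * (δ χ : ℂ) = 1 := by
        rcases hδ1 χ hχ with h | h <;> rw [h] <;> norm_num
      have h8 : (χ : X → ℂ) y = (δ χ : ℂ) * (χ₀ : X → ℂ) y := by
        rw [← h6, ← mul_assoc, h7, one_mul]
      rw [h8, map_mul]
      have : conj ((δ χ : ℂ)) = (δ χ : ℂ) := by simp
      rw [this]; ring
    · simp
  rw [h5] at h4
  exact (mul_eq_zero.1 h4).resolve_right (fun h => hy0 ((map_eq_zero _).1 h))

end Cfsg.Agent.Lib.Helper83
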