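import Cfsg.Agent.Lib.Helper81.RankSum
import Cfsg.Agent.Lib.Helper21.AvgChar
import Cfsg.Agent.Lib.Helper78.RankOne

set_option autoImplicit false
set_option linter.unusedSectionVars false
open Cfsg
open scoped ComplexConjugate
open Cfsg.Agent.Lib.Helper20 Cfsg.Agent.Lib.Helper81

/-! General tools for perfect isometries: integrality of `p ^ d χ(x) / |C(x)|`, and of
`Φ(x) / |C(x)|` for combinations `Φ` of characters vanishing on `p`-singular elements. -/

namespace Cfsg.Agent.Lib.Helper83

variable {X : Type*} [Group X] [Finite X]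

/-- For `χ` in a block of defect `d`, `p ^ d χ(x) / |C(x)|` is a local integer. -/
theorem pow_defect_mul_div_centralizer (p : ℕ) [Fact p.Prime] (M : Ideal AlgInt)
    (hM : IsPModular p M) (B : Set (IrrCharacter X)) (_hB : IsPBlock M B) (χ : IrrCharacter X)
    (hχ : χ ∈ B) (x : X) :
    MemLocalRing M ((p : ℂ) ^ blockDefect p B * (χ : X → ℂ) x /
      (Nat.card (Subgroup.centralizer ({x} : Set X)) : ℂ)) := by
  classical
  have : Fintype X := Fintype.ofFinite X
  have hp : p.Prime := Fact.out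
  have h1 := centralChar_memLocalRing hM χ x
  have hdeg : charDegree (χ : X → ℂ) ≠ 0 := charDegree_ne_zero χ
  have h2 : MemLocalRing M (((p ^ blockDefect p B * charDegree (χ : X → ℂ) : ℕ) : ℂ) /
      (Nat.card X : ℕ)) := by
    apply memLocalRing_natCast_div hM (mul_ne_zero (pow_ne_zero _ hp.ne_zero) hdeg)
      Nat.card_pos.ne'
    rw [Nat.factorization_mul (pow_ne_zero _ hp.ne_zero) hdeg, hp.factorization_pow]
    simp only [Finsupp.coe_add, Pi.add_apply, Finsupp.single_eq_same]
    have h3 := blockDefect_add (p := p) (B := B) ⟨χ, hχ⟩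
    have h4 : minDeg p B ≤ nuDeg p χ := minDeg_le hχ
    unfold nuDeg at h4
    omega
  have h3 := memLocalRing_mul hM h1 h2
  have hC : (Nat.card (Subgroup.centralizer ({x} : Set X)) : ℂ) ≠ 0 := by
    exact_mod_cast Nat.card_pos.ne'
  have hX : (Nat.card X : ℂ) ≠ 0 := by exact_mod_cast Nat.card_pos.ne'
  have hidx : (Nat.card X : ℂ) = (Nat.card (Subgroup.centralizer ({x} : Set X)) : ℂ) *
      ((Subgroup.centralizer ({x} : Set X)).index : ℂ) := by
    exact_mod_cast (Subgroup.card_mul_index (Subgroup.centralizer ({x} : Set X))).symm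
  have h1' : (χ : X → ℂ) 1 ≠ 0 := irr_one_ne_zero χ.2
  have e : centralChar (χ : X → ℂ) x * (((p ^ blockDefect p B * charDegree (χ : X → ℂ) : ℕ) : ℂ) /
      (Nat.card X : ℕ)) = (p : ℂ) ^ blockDefect p B * (χ : X → ℂ) x /
      (Nat.card (Subgroup.centralizer ({x} : Set X)) : ℂ) := by
    have hi0 : ((Subgroup.centralizer ({x} : Set X)).index : ℂ) ≠ 0 := by
      intro h0; rw [h0, mul_zero] at hidx; exact hX hidx
    unfold centralChar
    push_cast
    rw [← irr_one_eq χ, hidx]
    field_simp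
  rwa [e] at h3

/-- the product of a `p`-regular element with a commuting nontrivial `p`-element is
`p`-singular -/
theorem not_isPRegular_mul_of_commute {p : ℕ} (hp : p.Prime) {q x : X} (hc : Commute q x)
    (hq : ∃ k : ℕ, orderOf q = p ^ k) (hq1 : q ≠ 1) (hx : IsPRegular p x) :
    ¬ IsPRegular p (q * x) := by
  obtain ⟨k, hk⟩ := hq
  have hk0 : k ≠ 0 := by
    rintro rfl
    rw [pow_zero, orderOf_eq_one_iff] at hk
    exact hq1 hk
  have hcop : Nat.Coprime (orderOf q) (orderOf x) := by
    rw [hk]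
    exact Nat.Coprime.pow_left _ ((Nat.Prime.coprime_iff_not_dvd hp).2 hx)
  intro h
  apply h
  rw [hc.orderOf_mul_eq_mul_orderOf_of_coprime hcop, hk]
  exact Dvd.dvd.mul_right (dvd_pow_self p hk0) _

/-- A combination of irreducible characters with local integer coefficients that vanishes on
`p`-singular elements takes values divisible by `|C(x)|`. -/
theorem memLocalRing_div_centralizer_of_vanish (p : ℕ) [Fact p.Prime] (M : Ideal AlgInt)
    (hM : IsPModular p M) (S : Set (IrrCharacter X)) (a : IrrCharacter X → ℂ)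
    (ha : ∀ χ ∈ S, MemLocalRing M (a χ))
    (hv : ∀ x : X, ¬ IsPRegular p x → ∑ᶠ χ ∈ S, a χ * (χ : X → ℂ) x = 0) (x : X) :
    MemLocalRing M ((∑ᶠ χ ∈ S, a χ * (χ : X → ℂ) x) /
      (Nat.card (Subgroup.centralizer ({x} : Set X)) : ℂ)) := by
  classical
  have : Fintype X := Fintype.ofFinite X
  have : Finite (IrrCharacter X) := finite_irrCharacter
  have : Fintype (IrrCharacter X) := Fintype.ofFinite _
  have hp : p.Prime := Fact.out
  by_cases hx : IsPRegular p x
  swap
  · rw [hv x hx, zero_div]; exact memLocalRing_zero hM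
  -- a Sylow subgroup of the centralizer
  obtain ⟨Q⟩ : Nonempty (Sylow p (Subgroup.centralizer ({x} : Set X))) := inferInstance
  set D : Subgroup X := (Q : Subgroup (Subgroup.centralizer ({x} : Set X))).map
    (Subgroup.centralizer ({x} : Set X)).subtype with hD
  have hDcard : Nat.card D = Nat.card Q :=
    Subgroup.card_map_of_injective (Subgroup.subtype_injective _)
  have hDp : IsPGroup p D := Q.2.map _
  have hDx : ∀ u ∈ D, u * x = x * u := by
    intro u hu
    obtain ⟨v, _, rfl⟩ := hu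
    have := v.2
    rw [Subgroup.mem_centralizer_iff] at this
    exact (this x rfl).symm
  have : Fintype D := Fintype.ofFinite _
  -- the averaged sum
  have havg : ∀ χ : IrrCharacter X, MemLocalRing M
      ((Nat.card D : ℂ)⁻¹ * ∑ u : D, (χ : X → ℂ) ((u : X) * x)) := fun χ =>
    memLocalRing_of_isIntegral hM
      (Cfsg.Agent.Lib.Helper21.isIntegral_avg_char (isCharacter_of_isIrrCharacter χ.2) D x hDx)
  have hsum : MemLocalRing M (∑ χ : IrrCharacter X, if χ ∈ S then
      a χ * ((Nat.card D : ℂ)⁻¹ * ∑ u : D, (χ : X → ℂ) ((u : X) * x)) else 0) := by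
    apply memLocalRing_sum hM
    intro χ _
    split_ifs with hχ
    · exact memLocalRing_mul hM (ha χ hχ) (havg χ)
    · exact memLocalRing_zero hM
  have hval : (∑ χ : IrrCharacter X, if χ ∈ S then
      a χ * ((Nat.card D : ℂ)⁻¹ * ∑ u : D, (χ : X → ℂ) ((u : X) * x)) else 0)
      = (Nat.card D : ℂ)⁻¹ * ∑ᶠ χ ∈ S, a χ * (χ : X → ℂ) x := by
    have h1 : ∀ χ : IrrCharacter X, (if χ ∈ S then
        a χ * ((Nat.card D : ℂ)⁻¹ * ∑ u : D, (χ : X → ℂ) ((u : X) * x)) else 0)
        = (Nat.card D : ℂ)⁻¹ * ∑ u : D, (if χ ∈ S then a χ * (χ : X → ℂ) ((u : X) * x) else 0) := by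
      intro χ
      split_ifs with hχ
      · rw [Finset.mul_sum, Finset.mul_sum, Finset.mul_sum]
        apply Finset.sum_congr rfl; intro u _; ring
      · simp
    simp only [h1]
    rw [← Finset.mul_sum, Finset.sum_comm]
    congr 1
    rw [Finset.sum_eq_single (1 : D)]
    · rw [finsum_mem_irr]; simp
    · intro u _ hu
      rw [← finsum_mem_irr]
      apply hv
      apply not_isPRegular_mul_of_commute hp (hDx u u.2) _ _ hx
      · obtain ⟨k, hk⟩ := hDp u
        have h1 : (u : X) ^ (p ^ k) = 1 := by simpa using congrArg Subtype.val hk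
        obtain ⟨m, _, hm⟩ := (Nat.dvd_prime_pow hp).1 (orderOf_dvd_of_pow_eq_one h1)
        exact ⟨m, hm⟩
      · intro h; exact hu (Subtype.ext h)
    · intro h; exact absurd (Finset.mem_univ _) h
  rw [hval] at hsum
  -- pass from `|D|` to `|C(x)|`
  have hC0 : Nat.card (Subgroup.centralizer ({x} : Set X)) ≠ 0 := Nat.card_pos.ne'
  have hQc : Nat.card Q = p ^ (Nat.card (Subgroup.centralizer ({x} : Set X))).factorization p :=
    Q.card_eq_multiplicity
  have hunit : MemLocalRing M ((Nat.card D : ℂ) /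
      (Nat.card (Subgroup.centralizer ({x} : Set X)) : ℂ)) := by
    apply memLocalRing_natCast_div hM Nat.card_pos.ne' hC0
    rw [hDcard, hQc, hp.factorization_pow]
    simp
  have h3 := memLocalRing_mul hM hsum hunit
  have hD0 : (Nat.card D : ℂ) ≠ 0 := by exact_mod_cast Nat.card_pos.ne'
  have e : (Nat.card D : ℂ)⁻¹ * (∑ᶠ χ ∈ S, a χ * (χ : X → ℂ) x) * ((Nat.card D : ℂ) /
      (Nat.card (Subgroup.centralizer ({x} : Set X)) : ℂ))
      = (∑ᶠ χ ∈ S, a χ * (χ : X → ℂ) x) /
      (Nat.card (Subgroup.centralizer ({x} : Set X)) : ℂ) := by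
    field_simp
  rwa [e] at h3

end Cfsg.Agent.Lib.Helper83
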